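import Cfsg.Agent.Lib.Brauer43.Fix

/-!
# Exceptional characters of degree `e`
-/

set_option autoImplicit false
set_option linter.unusedSectionVars false
set_option linter.style.haveILetI false

namespace Cfsg.Agent.Lib.Brauer43

open Cfsg Cfsg.Agent.Lib Cfsg.Agent.Lib.Char Cfsg.Agent.Lib.DefectOne
open Cfsg.Agent.Lib.Char.UC (C N)
open scoped ComplexConjugate Classical

universe u

variable {p : ℕ} [hp : Fact p.Prime] {G : Type u} [Group G] [Fintype G] {P : Sylow p G} {n : ℕ}

theorem caseOne (H : Hyp P n) (d : Data P) (hε : d.ε = 1) (hD : d.D = eN P)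
    (hy : d.W.card = d.X.card * n) : n = 1 ∧ d.t = 2 := by
  obtain ⟨ψ, hψ⟩ := d.exists_mem_Y H
  have hc := isCharacter_of_isIrr ψ.2
  have hs : sumP P (ψ : G → ℂ) = 0 := by rw [d.sumY ψ hψ, hε, hD]; push_cast; ring
  set φ : G → ℂ := fun g => (ψ : G → ℂ) g * conj ((ψ : G → ℂ) g) with hφdef
  have hφ : IsCharacter G φ := isCharacter_mul hc (isCharacter_conj hc)
  have hφd : charDegree φ = eN P * eN P := by
    refine charDegree_eq_of_apply_one ?_
    simp only [hφdef, apply_one_eq_charDegree hc, d.degY ψ hψ, hD, map_natCast, Nat.cast_mul]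
  have hmain : ∀ χ ∈ insert (Block.oneIrr G) d.X, classInner φ (χ : G → ℂ) ≠ 0 := by
    intro χ hχ
    rcases Finset.mem_insert.1 hχ with rfl | hχX
    · have h1 : classInner φ ((Block.oneIrr G : IrrCharacter G) : G → ℂ) = 1 := by
        rw [← classInner_irr_self ψ.2]
        simp only [classInner, hφdef, Block.oneIrr_apply, map_one, mul_one]
      rw [h1]; exact one_ne_zero
    · obtain ⟨θ, hθ, hind⟩ := d.exists_lin_of_X H hχX
      rw [← hind, classInner_indFun_right (N P) _ (isClassFunction_of_isCharacter hφ)]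
      have h0 : classInner (fun h : N P => φ h) (θ : N P → ℂ) =
          (Nat.card (N P) : ℂ)⁻¹ * ((∑ h ∈ Finset.univ.filter
            (fun h : N P => (h : G) ∈ (P : Subgroup G)), ‖(ψ : G → ℂ) h‖ ^ 2 : ℝ) : ℂ) := by
        rw [classInner]
        congr 1
        rw [Complex.ofReal_sum, Finset.sum_filter]
        refine Finset.sum_congr rfl fun h _ => ?_
        split_ifs with hh
        · rw [hθ.2 h hh, map_one, mul_one]
          simp only [hφdef]
          rw [Complex.mul_conj, Complex.normSq_eq_norm_sq]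
        · simp only [hφdef]
          rw [H.eq_zero_of_sumP hc hs h.2 hh, zero_mul, zero_mul]
      rw [h0]
      refine mul_ne_zero (inv_ne_zero (Nat.cast_ne_zero.2 Nat.card_pos.ne')) ?_
      rw [Complex.ofReal_ne_zero]
      refine (Finset.sum_pos' (fun (h : N P) _ => by positivity) ⟨(1 : N P), Finset.mem_filter.2
        ⟨Finset.mem_univ _, ?_⟩, ?_⟩).ne'
      · rw [OneMemClass.coe_one]; exact one_mem _
      rw [OneMemClass.coe_one, apply_one_eq_charDegree hc, Complex.norm_natCast]
      have := charDegree_pos ψ.2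
      positivity
  have hle := sum_degree_le hφ _ hmain
  rw [Finset.sum_insert (fun h => (d.mem_X H h).2.1 rfl), hφd,
    show charDegree (Block.oneIrr G : G → ℂ) = 1 from charDegree_one,
    Finset.sum_congr rfl (g := fun _ => 1 + n * p) (fun χ hχ => (d.mem_X H hχ).2.2.2),
    Finset.sum_const, smul_eq_mul] at hle
  have hxy := d.card_X_add_W H
  have ht := d.two_le_t H
  have htm := d.t_mul H
  have hp3 := H.p_three
  have h2e := H.two_le_e
  have hn1 := H.one_le_n
  rw [hy] at hxy
  set x := d.X.card with hx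
  set e := eN P with he
  have hpe : 2 * e + 1 ≤ p := by
    have : 2 * e ≤ d.t * e := Nat.mul_le_mul_right _ ht
    omega
  have hx1 : 1 ≤ x := by
    rcases Nat.eq_zero_or_pos x with h | h
    · rw [h] at hxy; omega
    · exact h
  have hA : 1 + n * p ≤ (e + 1) * (n + 1) := by
    refine le_of_mul_le_mul_left ?_ hx1
    have h3 : x * (n + 1) + 1 = e := by linarith
    nlinarith
  have hn : n = 1 := by
    have : 1 + n * (2 * e + 1) ≤ (e + 1) * (n + 1) :=
      le_trans (Nat.add_le_add_left (Nat.mul_le_mul_left n hpe) 1) hA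
    by_contra hne
    have : 2 ≤ n := by omega
    nlinarith
  refine ⟨hn, ?_⟩
  -- a character of degree `p - 1` gives `t ∣ 2`
  obtain ⟨χ, hχ⟩ := Finset.card_pos.1 (show 0 < d.W.card by rw [hy, hn]; omega)
  obtain ⟨-, -, -, hdeg⟩ := d.mem_W H hχ
  have hnd : ¬ p ∣ charDegree (χ : G → ℂ) := by
    rw [hdeg]; intro h
    have := Nat.le_of_dvd (by omega) h
    omega
  have h1 := (H.degree_facts χ hnd).1
  rw [hdeg, hn, one_mul, ← htm, mul_comm d.t] at h1
  have h2 : d.t ∣ 1 + p := Nat.dvd_of_mul_dvd_mul_left (show 0 < e by omega) h1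
  have h3 : d.t ∣ p - 1 := htm ▸ dvd_mul_right _ _
  have h4 : d.t ∣ 2 := by
    have := Nat.dvd_sub h2 h3
    rwa [show 1 + p - (p - 1) = 2 by omega] at this
  have := Nat.le_of_dvd two_pos h4
  omega

end Cfsg.Agent.Lib.Brauer43
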