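import Cfsg.Agent.Lib.Brauer43.Involution
import Cfsg.Agent.Lib.Char.AltSquare
import Cfsg.Agent.Lib.Char.FrobSchur
import Cfsg.Agent.Lib.DefectOne.Principal
import Cfsg.Agent.Lib.DefectOne.GaloisConj
import Cfsg.Agent.Lib.Block.Exist
import Cfsg.Agent.S0895

/-!
# Groups with a self-centralising Sylow subgroup of order `p` and normaliser of order `2 p`
-/

set_option autoImplicit false
set_option linter.unusedSectionVars false
set_option linter.style.haveILetI false

namespace Cfsg.Agent.Lib.Brauer43.IndexTwoP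

open Cfsg Cfsg.Agent.Lib Cfsg.Agent.Lib.Char Cfsg.Agent.Lib.DefectOne
open Cfsg.Agent.Lib.Char.UC (C N)
open scoped Classical ComplexConjugate Pointwise

universe u

variable {p : ℕ} [hp : Fact p.Prime] {G : Type u} [Group G] [Fintype G] {P : Sylow p G}

theorem sing_conj (hP : Nat.card (P : Subgroup G) = p) (hself : C P = (P : Subgroup G)) {g : G}
    (hg : p ∣ orderOf g) : ∃ h y : G, y ∈ (P : Subgroup G) ∧ y ≠ 1 ∧ g = h * y * h⁻¹ := by
  set z := g ^ (orderOf g / p) with hz
  have ho : orderOf z = p := orderOf_pow_orderOf_div (orderOf_pos g).ne' hg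
  obtain ⟨Q, hQ⟩ := (IsPGroup.of_card (n := 1) (by rw [Nat.card_zpowers, ho, pow_one]) :
    IsPGroup p (Subgroup.zpowers z)).exists_le_sylow
  obtain ⟨h, hh⟩ := MulAction.exists_smul_eq G P Q
  have hzQ : z ∈ MulAut.conj h • (P : Subgroup G) := by
    have := hQ (Subgroup.mem_zpowers z)
    rw [← hh] at this
    exact this
  obtain ⟨w, hw, hwz⟩ := (Subgroup.mem_smul_pointwise_iff_exists _ _ _).1 hzQ
  have hwz' : h * w * h⁻¹ = z := by simpa [MulAut.smul_def] using hwz
  have hw1 : w ≠ 1 := fun e => by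
    rw [e, mul_one, mul_inv_cancel] at hwz'
    rw [← hwz', orderOf_one] at ho
    exact hp.out.ne_one ho.symm
  have hmem : h⁻¹ * g * h ∈ C P := by
    rw [show C P = Subgroup.centralizer ({w} : Set G) from (star_of_card hP w hw hw1).symm,
      Subgroup.mem_centralizer_singleton_iff]
    have e : g * z = z * g := (Commute.self_pow g _).eq
    calc h⁻¹ * g * h * w = h⁻¹ * (g * (h * w * h⁻¹)) * h := by group
      _ = h⁻¹ * ((h * w * h⁻¹) * g) * h := by rw [hwz', e]
      _ = w * (h⁻¹ * g * h) := by group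
  rw [hself] at hmem
  refine ⟨h, h⁻¹ * g * h, hmem, fun e => ?_, by group⟩
  have : g = 1 := by
    calc g = h * (h⁻¹ * g * h) * h⁻¹ := by group
      _ = 1 := by rw [e]; group
  rw [this, orderOf_one] at hg
  exact hp.out.not_dvd_one hg

/-- The principal block. -/
theorem exists_block (hP : Nat.card (P : Subgroup G) = p) (hself : C P = (P : Subgroup G))
    (hN : Nat.card (N P) = 2 * p) (hp5 : 5 ≤ p) :
    ∃ (Y : Finset (IrrCharacter G)) (χ : IrrCharacter G) (s ε : ℤ),
      Y.card = (p - 1) / 2 ∧ Block.oneIrr G ∉ Y ∧ χ ∉ Y ∧ χ ≠ Block.oneIrr G ∧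
      (s = 1 ∨ s = -1) ∧ (ε = 1 ∨ ε = -1) ∧
      (∀ g : G, p ∣ orderOf g → (χ : G → ℂ) g = (s : ℂ)) ∧
      (∀ ψ ∈ Y, ∀ g : G, ¬ p ∣ orderOf g →
        (ε : ℂ) * (ψ : G → ℂ) g = 1 + (s : ℂ) * (χ : G → ℂ) g) := by
  have he : (C P).relIndex (N P) = 2 := by
    have h := ((C P).subgroupOf (N P)).card_mul_index
    rw [Nat.card_congr (Subgroup.subgroupOfEquivOfLe (UC.C_le_N P)).toEquiv, hself, hP, hN,
      mul_comm 2 p] at h
    rw [hself]
    exact Nat.eq_of_mul_eq_mul_left hp.out.pos h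
  obtain ⟨M, hM⟩ := Block.exists_isPModular (p := p) hp.out
  haveI := hM.2.1
  obtain ⟨-, Z, Y, sgn, ε, hB, hd, hZ, hY, hε, hZv, -, hYr, hrel⟩ := principal_structure hM hP
  rw [he] at hZ hY
  have hYc : 2 ≤ Y.card := by rw [hY]; omega
  obtain ⟨x₀, hx₀, hx₀1⟩ := exists_mem_ne_one (P := P) hP
  have hmem1 : Block.oneIrr G ∈ Z ∪ Y := by
    have hmem : Block.oneIrr G ∈ principalBlock M G := Block.oneIrr_mem
    rw [hB] at hmem
    exact Finset.mem_union.2 hmem
  have h1Z : Block.oneIrr G ∈ Z := by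
    refine (Finset.mem_union.1 hmem1).resolve_right fun h => ?_
    obtain ⟨ψ, hψ, hψne⟩ := Finset.exists_mem_ne hYc (Block.oneIrr G)
    have hreg : ∀ g : G, ¬ p ∣ orderOf g → (ψ : G → ℂ) g = 1 := fun g hg =>
      (hYr ψ hψ _ h g hg).trans (Block.oneIrr_apply g)
    obtain ⟨l, hl⟩ := exists_hom_of_degree_one (isCharacter_of_isIrr ψ.2)
      (hreg 1 (by rw [orderOf_one]; exact hp.out.not_dvd_one))
    refine hψne (Subtype.ext (funext fun g => ?_))
    rw [Block.oneIrr_apply]
    by_cases hg : p ∣ orderOf g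
    · have hne : ¬ N P ≤ C P := fun hle => by
        have := Subgroup.card_le_of_le hle
        rw [hN, hself, hP] at this
        omega
      obtain ⟨n, hn, hnC⟩ := SetLike.not_le_iff_exists.1 hne
      obtain ⟨h', y, hy, hy1, rfl⟩ := sing_conj hP hself hg
      have hy' : n * y * n⁻¹ ∈ (P : Subgroup G) := (Subgroup.mem_normalizer_iff.1 hn y).1 hy
      have hne' : n * y * n⁻¹ * y⁻¹ ≠ 1 := by
        intro e
        refine hnC ?_
        rw [show C P = Subgroup.centralizer ({y} : Set G) from (star_of_card hP y hy hy1).symm,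
          Subgroup.mem_centralizer_singleton_iff]
        exact mul_inv_eq_iff_eq_mul.1 (mul_inv_eq_one.1 e)
      have hw : n * y * n⁻¹ * y⁻¹ ∈ (P : Subgroup G) := mul_mem hy' (inv_mem hy)
      have hgen : Subgroup.zpowers (n * y * n⁻¹ * y⁻¹) = (P : Subgroup G) := by
        refine Subgroup.eq_of_le_of_card_ge (Subgroup.zpowers_le.2 hw) ?_
        rw [hP, Nat.card_zpowers]
        rcases (Nat.dvd_prime hp.out).1 (hP ▸ (P : Subgroup G).orderOf_dvd_natCard hw) with h | h
        · exact absurd (orderOf_eq_one_iff.1 h) hne'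
        · rw [h]
      obtain ⟨i, hi⟩ := Subgroup.mem_zpowers_iff.1 (hgen ▸ hy : y ∈ Subgroup.zpowers _)
      have hly : l y = 1 := by
        rw [← hi, map_zpow, show l (n * y * n⁻¹ * y⁻¹) = 1 by
          rw [map_mul, map_mul, map_mul, map_inv, map_inv, mul_comm (l n), mul_inv_cancel_right,
            mul_inv_cancel], one_zpow]
      rw [hl]
      simp [hly]
    · exact hreg g hg
  have hval : ∀ χ ∈ Z, ∀ g : G, p ∣ orderOf g → (χ : G → ℂ) g = (sgn χ : ℂ) := by
    intro χ hχ g hg
    obtain ⟨h, y, hy, hy1, rfl⟩ := sing_conj hP hself hg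
    have := (hZv χ hχ).2.2 y hy hy1 1 (one_mem _) (by rw [orderOf_one]; exact hp.out.not_dvd_one)
    rw [mul_one] at this
    rw [isClassFunction_of_isIrr χ.2 y h, this]
  have hsgn1 : sgn (Block.oneIrr G) = 1 := by
    have h := ((hZv _ h1Z).2.2 x₀ hx₀ hx₀1 1 (one_mem _)
      (by rw [orderOf_one]; exact hp.out.not_dvd_one)).symm
    rw [Block.oneIrr_apply] at h
    exact_mod_cast h
  obtain ⟨χ, hχ⟩ := Finset.card_eq_one.1 (show (Z.erase (Block.oneIrr G)).card = 1 by
    rw [Finset.card_erase_of_mem h1Z, hZ])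
  have hχm : χ ∈ Z.erase (Block.oneIrr G) := by rw [hχ]; exact Finset.mem_singleton_self χ
  obtain ⟨hχne, hχZ⟩ := Finset.mem_erase.1 hχm
  refine ⟨Y, χ, sgn χ, ε, hY, Finset.disjoint_left.1 hd h1Z, Finset.disjoint_left.1 hd hχZ, hχne,
    (hZv χ hχZ).1, hε, hval χ hχZ, fun ψ hψ g hg => ?_⟩
  rw [hrel ψ hψ g hg, ← Finset.add_sum_erase _ _ h1Z, hχ, Finset.sum_singleton, hsgn1,
    Block.oneIrr_apply]
  push_cast; ring

/-- A class function constant on `p`-singular elements against the block. -/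
theorem coeff_rel {Y : Finset (IrrCharacter G)} {χ : IrrCharacter G} {s ε : ℤ}
    (h1 : Block.oneIrr G ∉ Y) (hχne : χ ≠ Block.oneIrr G)
    (hrel : ∀ ψ ∈ Y, ∀ g : G, ¬ p ∣ orderOf g →
      (ε : ℂ) * (ψ : G → ℂ) g = 1 + (s : ℂ) * (χ : G → ℂ) g)
    {F : G → ℂ} {c : ℂ} (hF : ∀ g : G, p ∣ orderOf g → F g = c) {ψ : IrrCharacter G} (hψ : ψ ∈ Y) :
    (ε : ℂ) * classInner F (ψ : G → ℂ) - classInner F (Block.oneIrr G : G → ℂ) -
      (s : ℂ) * classInner F (χ : G → ℂ) = -c := by
  set Δ : G → ℂ := (ε : ℂ) • (ψ : G → ℂ) - (Block.oneIrr G : G → ℂ) - (s : ℂ) • (χ : G → ℂ) with hΔ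
  have hexp : ∀ F : G → ℂ, classInner F Δ = (ε : ℂ) * classInner F (ψ : G → ℂ) -
      classInner F (Block.oneIrr G : G → ℂ) - (s : ℂ) * classInner F (χ : G → ℂ) := fun F => by
    rw [hΔ, classInner_sub_right, classInner_sub_right, classInner_smul_right, classInner_smul_right,
      map_intCast, map_intCast]
  have hone : classInner (Block.oneIrr G : G → ℂ) Δ = -1 := by
    rw [hexp, classInner_irrCharacter, classInner_irrCharacter, classInner_irrCharacter,
      if_neg (show Block.oneIrr G ≠ ψ from fun e => h1 (e ▸ hψ)), if_pos rfl,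
      if_neg hχne.symm]
    ring
  rw [← hexp, ← mul_neg_one c, ← hone]
  simp only [classInner]
  rw [← mul_assoc c, mul_comm c, mul_assoc, Finset.mul_sum (a := c)]
  congr 1
  refine Finset.sum_congr rfl fun g _ => ?_
  by_cases hg : p ∣ orderOf g
  · rw [hF g hg, Block.oneIrr_apply, one_mul]
  · have : Δ g = 0 := by
      simp only [hΔ, Pi.sub_apply, Pi.smul_apply, smul_eq_mul, Block.oneIrr_apply, hrel ψ hψ g hg]
      ring
    rw [this, map_zero, mul_zero, mul_zero, mul_zero]

theorem classInner_sum_smul (a : IrrCharacter G → ℂ) (ψ : IrrCharacter G) :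
    classInner (∑ χ : IrrCharacter G, a χ • (χ : G → ℂ)) (ψ : G → ℂ) = a ψ := by
  rw [classInner_sum_left, Finset.sum_eq_single ψ]
  · rw [classInner_smul_left, classInner_irrCharacter, if_pos rfl, mul_one]
  · intro χ _ hne
    rw [classInner_smul_left, classInner_irrCharacter, if_neg hne, mul_zero]
  · exact fun h => absurd (Finset.mem_univ _) h

/-- The number of Sylow subgroups and the singular elements. -/
theorem card_singular (hP : Nat.card (P : Subgroup G) = p) (hself : C P = (P : Subgroup G)) :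
    (Finset.univ.filter fun g : G => p ∣ orderOf g).card = Nat.card (Sylow p G) * (p - 1) := by
  have hQ : ∀ Q : Sylow p G, Nat.card (Q : Subgroup G) = p := fun Q => by
    rw [Nat.card_congr (Sylow.equiv Q P).toEquiv, hP]
  have hselfQ : ∀ Q : Sylow p G, ∀ g : G, g ∈ (Q : Subgroup G) → g ≠ 1 → orderOf g = p := by
    intro Q g hg hg1
    rcases (Nat.dvd_prime hp.out).1 (hQ Q ▸ (Q : Subgroup G).orderOf_dvd_natCard hg) with h | h
    · exact absurd (orderOf_eq_one_iff.1 h) hg1
    · exact h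
  rw [show (Finset.univ.filter fun g : G => p ∣ orderOf g) = Finset.univ.biUnion
      (fun Q : Sylow p G => (Finset.univ.filter (· ∈ (Q : Subgroup G))).erase 1) by
    ext g
    simp only [Finset.mem_filter, Finset.mem_univ, true_and, Finset.mem_biUnion, Finset.mem_erase]
    refine ⟨fun hg => ?_, ?_⟩
    · obtain ⟨h, y, hy, hy1, rfl⟩ := sing_conj hP hself hg
      refine ⟨h • P, fun e => hy1 (conj_eq_one_iff.1 e), ?_⟩
      show h * y * h⁻¹ ∈ MulAut.conj h • (P : Subgroup G)
      exact (Subgroup.mem_smul_pointwise_iff_exists _ _ _).2 ⟨y, hy, by simp [MulAut.smul_def]⟩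
    · rintro ⟨Q, hg1, hg⟩
      rw [hselfQ Q g hg hg1]]
  rw [Finset.card_biUnion, Finset.sum_congr rfl (g := fun _ => p - 1) fun Q _ => ?_, Finset.sum_const,
    Finset.card_univ, ← Nat.card_eq_fintype_card, smul_eq_mul]
  · rw [Finset.card_erase_of_mem (by simp), ← Fintype.card_subtype, ← Nat.card_eq_fintype_card, hQ Q]
  · intro Q _ Q' _ hne
    rw [Function.onFun, Finset.disjoint_left]
    intro g hg hg'
    simp only [Finset.mem_erase, Finset.mem_filter, Finset.mem_univ, true_and] at hg hg'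
    refine hne (Sylow.ext ?_)
    have e : ∀ R : Sylow p G, g ∈ (R : Subgroup G) → (R : Subgroup G) = Subgroup.zpowers g :=
      fun R hR => (Subgroup.eq_of_le_of_card_ge (Subgroup.zpowers_le.2 hR)
        (by rw [hQ R, Nat.card_zpowers, hselfQ R g hR hg.1])).symm
    rw [e Q hg.2, e Q' hg'.2]

/-- An involution in the normaliser inverts `P`; its coset consists of conjugates of it. -/
theorem exists_inverter (hP : Nat.card (P : Subgroup G) = p) (hself : C P = (P : Subgroup G))
    (hN : Nat.card (N P) = 2 * p) (hp5 : 5 ≤ p) :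
    ∃ t : G, orderOf t = 2 ∧ t ∈ N P ∧ (∀ y ∈ (P : Subgroup G), t * y * t⁻¹ = y⁻¹) ∧
      ∀ y ∈ (P : Subgroup G), orderOf (t * y) = 2 ∧ IsConj (t * y) t := by
  haveI : Fact (Nat.Prime 2) := ⟨Nat.prime_two⟩
  obtain ⟨⟨t, htN⟩, ht⟩ := exists_prime_orderOf_dvd_card' (G := N P) 2
    (by rw [hN]; exact dvd_mul_right 2 p)
  rw [Subgroup.orderOf_mk] at ht
  have htP : t ∉ (P : Subgroup G) := fun h => by
    have h1 := (P : Subgroup G).orderOf_dvd_natCard h
    rw [ht, hP] at h1
    have := (Nat.prime_dvd_prime_iff_eq Nat.prime_two hp.out).1 h1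
    omega
  have ht2 : t * t = 1 := by rw [← pow_two, ← ht, pow_orderOf_eq_one]
  have hti : t⁻¹ = t := inv_eq_of_mul_eq_one_right ht2
  obtain ⟨x, hx, hx1⟩ := exists_mem_ne_one (P := P) hP
  haveI : IsCyclic (P : Subgroup G) := isCyclic_of_prime_card hP
  have hcomm : ∀ a ∈ (P : Subgroup G), ∀ b ∈ (P : Subgroup G), a * b = b * a := by
    letI : CommGroup (P : Subgroup G) := IsCyclic.commGroup
    exact fun a ha b hb => congrArg Subtype.val (mul_comm (⟨a, ha⟩ : (P : Subgroup G)) ⟨b, hb⟩)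
  have hxP : ∀ y ∈ (P : Subgroup G), t * y * t⁻¹ ∈ (P : Subgroup G) := fun y hy =>
    (Subgroup.mem_normalizer_iff.1 htN y).1 hy
  have hgen : ∀ y ∈ (P : Subgroup G), y ≠ 1 → t * y * t⁻¹ = y → False := by
    intro y hy hy1 e
    refine htP ?_
    rw [← hself, show C P = Subgroup.centralizer ({y} : Set G) from (star_of_card hP y hy hy1).symm,
      Subgroup.mem_centralizer_singleton_iff]
    exact mul_inv_eq_iff_eq_mul.1 e
  have hinv : ∀ y ∈ (P : Subgroup G), t * y * t⁻¹ = y⁻¹ := by
    intro y hy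
    have hw : y * (t * y * t⁻¹) ∈ (P : Subgroup G) := mul_mem hy (hxP y hy)
    have hfix : t * (y * (t * y * t⁻¹)) * t⁻¹ = y * (t * y * t⁻¹) := by
      rw [hcomm y hy _ (hxP y hy), hti]
      calc t * (t * y * t * y) * t = (t * t) * y * (t * y * t) := by group
        _ = y * (t * y * t) := by rw [ht2, one_mul]
        _ = t * y * t * y := (hcomm y hy _ (by simpa [hti] using hxP y hy))
    have h1 : y * (t * y * t⁻¹) = 1 := by_contra fun h => hgen _ hw h hfix
    exact (inv_eq_of_mul_eq_one_right h1).symm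
  refine ⟨t, ht, htN, hinv, fun y hy => ?_⟩
  have h2 : t * y * (t * y) = 1 := by
    calc t * y * (t * y) = t * y * t⁻¹ * y := by rw [hti]; group
      _ = 1 := by rw [hinv y hy, inv_mul_cancel]
  have hne : t * y ≠ 1 := fun e => htP (by
    rw [eq_inv_of_mul_eq_one_left e]; exact inv_mem hy)
  refine ⟨orderOf_eq_prime (by rw [pow_two]; exact h2) hne, ?_⟩
  -- square root of `y` in `P`
  have hr : y ^ ((p + 1) / 2) * y ^ ((p + 1) / 2) = y := by
    have hodd : p % 2 = 1 := Nat.odd_iff.1 (hp.out.odd_of_ne_two (by omega))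
    have hyp : y ^ p = 1 := by
      have h1 : (⟨y, hy⟩ : (P : Subgroup G)) ^ Nat.card (P : Subgroup G) = 1 := pow_card_eq_one'
      rw [hP] at h1
      simpa using congrArg Subtype.val h1
    rw [← pow_add, show (p + 1) / 2 + (p + 1) / 2 = p + 1 by omega, pow_succ, hyp, one_mul]
  set r := y ^ ((p + 1) / 2) with hrdef
  have hrP : r ∈ (P : Subgroup G) := pow_mem hy _
  refine isConj_iff.2 ⟨r, ?_⟩
  have hi := hinv r⁻¹ (inv_mem hrP)
  rw [inv_inv] at hi
  calc r * (t * y) * r⁻¹ = (t * r⁻¹ * t⁻¹) * (t * y) * r⁻¹ := by rw [hi]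
    _ = t * (r⁻¹ * y) * r⁻¹ := by group
    _ = t := by
        conv_lhs => rw [← hr]
        group

/-- The order of the group. -/
theorem card_eq (hP : Nat.card (P : Subgroup G) = p) (hself : C P = (P : Subgroup G))
    (hN : Nat.card (N P) = 2 * p) (hp5 : 5 ≤ p) {Y : Finset (IrrCharacter G)} {θ : IrrCharacter G}
    (hY : Y.card = (p - 1) / 2) (h1Y : Block.oneIrr G ∉ Y) (hθY : θ ∉ Y)
    (hθne : θ ≠ Block.oneIrr G) (hθsing : ∀ g : G, p ∣ orderOf g → (θ : G → ℂ) g = -1)
    (hrel : ∀ ψ ∈ Y, ∀ g : G, ¬ p ∣ orderOf g →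
      ((-1 : ℤ) : ℂ) * (ψ : G → ℂ) g = 1 + ((-1 : ℤ) : ℂ) * (θ : G → ℂ) g)
    (hint : ∀ g : G, ∃ z : ℤ, (θ : G → ℂ) g = z)
    (hdeg : charDegree (θ : G → ℂ) + 1 = p)
    (hfaith : ∀ g : G, (θ : G → ℂ) g = (θ : G → ℂ) 1 → g = 1) :
    Nat.card G = p * (p - 1) * (p - 2) := by
  obtain ⟨t', ht'⟩ : ∃ t', p = 2 * t' + 3 := by
    rcases hp.out.eq_two_or_odd' with h | ⟨k, h⟩
    · omega
    · exact ⟨k - 1, by omega⟩
  have hθc := isCharacter_of_isIrr θ.2
  have hθ1 : (θ : G → ℂ) 1 = (p : ℂ) - 1 := by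
    rw [apply_one_eq_charDegree hθc, ← hdeg]; push_cast; ring
  have hp_odd : ¬ p ∣ 2 := fun h => by have := Nat.le_of_dvd two_pos h; omega
  have hψval : ∀ ψ ∈ Y, ∀ g : G, ¬ p ∣ orderOf g → (ψ : G → ℂ) g = (θ : G → ℂ) g - 1 := by
    intro ψ hψ g hg
    have h := hrel ψ hψ g hg
    push_cast at h
    linear_combination -h
  have hψd : ∀ ψ ∈ Y, charDegree (ψ : G → ℂ) + 2 = p := by
    intro ψ hψ
    have h := hψval ψ hψ 1 (by rw [orderOf_one]; exact hp.out.not_dvd_one)
    rw [hθ1, apply_one_eq_charDegree (isCharacter_of_isIrr ψ.2)] at h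
    have h' : ((charDegree (ψ : G → ℂ) + 2 : ℕ) : ℂ) = (p : ℂ) := by
      push_cast; linear_combination h
    exact_mod_cast h'
  have hreal : ∀ g : G, ((θ : G → ℂ) g).im = 0 := fun g => by
    obtain ⟨z, hz⟩ := hint g
    rw [hz]; simp
  have hsing_sq : ∀ g : G, p ∣ orderOf g → p ∣ orderOf (g * g) := by
    intro g hg
    rw [← pow_two, orderOf_pow]
    have h2d : Nat.gcd (orderOf g) 2 ∣ 2 := Nat.gcd_dvd_right _ _
    have := Nat.div_mul_cancel (Nat.gcd_dvd_left (orderOf g) 2)
    rw [← this] at hg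
    exact (hp.out.dvd_mul.1 hg).resolve_right fun h => hp_odd (h.trans h2d)
  obtain ⟨x₀, hx₀, hx₀1⟩ := exists_mem_ne_one (P := P) hP
  obtain ⟨ψ₀, hψ₀⟩ := Finset.card_pos.1 (show 0 < Y.card by rw [hY]; omega)
  -- the indicators
  have hν : fsInd (θ : G → ℂ) = 1 := by
    set R : G → ℂ := ∑ χ : IrrCharacter G, fsInd (χ : G → ℂ) • (χ : G → ℂ) with hR
    have hRcard : ∀ g : G, R g = ((Finset.univ.filter fun s : G => s * s = g).card : ℂ) :=
      fun g => by
        rw [card_sqrt_eq_sum, hR, Finset.sum_apply]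
        rfl
    have hone_x : ∀ g : G, p ∣ orderOf g → R g = 1 := by
      intro g hg
      obtain ⟨h, y, hy, hy1, rfl⟩ := sing_conj hP hself hg
      have hRc : R (h * y * h⁻¹) = R y := by
        simp only [hR, Finset.sum_apply, Pi.smul_apply, smul_eq_mul]
        exact Finset.sum_congr rfl fun χ _ => by rw [isClassFunction_of_isIrr χ.2 y h]
      rw [hRc, hRcard, Finset.card_eq_one.2 ⟨y ^ ((p + 1) / 2), ?_⟩, Nat.cast_one]
      have hodd : p % 2 = 1 := Nat.odd_iff.1 (hp.out.odd_of_ne_two (by omega))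
      have hpw : ∀ z ∈ (P : Subgroup G), z ^ p = 1 := fun z hz => by
        have h1 : (⟨z, hz⟩ : (P : Subgroup G)) ^ Nat.card (P : Subgroup G) = 1 := pow_card_eq_one'
        rw [hP] at h1
        simpa using congrArg Subtype.val h1
      have hroot : y ^ ((p + 1) / 2) * y ^ ((p + 1) / 2) = y := by
        rw [← pow_add, show (p + 1) / 2 + (p + 1) / 2 = p + 1 by omega, pow_succ, hpw y hy, one_mul]
      ext s
      simp only [Finset.mem_filter, Finset.mem_univ, true_and, Finset.mem_singleton]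
      refine ⟨fun hs => ?_, fun hs => hs ▸ hroot⟩
      have hsC : s ∈ C P := by
        rw [show C P = Subgroup.centralizer ({y} : Set G) from (star_of_card hP y hy hy1).symm,
          Subgroup.mem_centralizer_singleton_iff, ← hs, mul_assoc]
      rw [hself] at hsC
      rw [← hs, ← pow_two, ← pow_mul, show 2 * ((p + 1) / 2) = p + 1 by omega, pow_succ, hpw s hsC,
        one_mul]
    have hcoef := coeff_rel h1Y hθne hrel hone_x hψ₀
    rw [hR, classInner_sum_smul, classInner_sum_smul, classInner_sum_smul,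
      show fsInd (Block.oneIrr G : G → ℂ) = 1 by
        simp [fsInd, Block.oneIrr_apply]] at hcoef
    push_cast at hcoef
    have heq : fsInd (ψ₀ : G → ℂ) = fsInd (θ : G → ℂ) := by linear_combination -hcoef
    have hθν : fsInd (θ : G → ℂ) ≠ 0 := fun e => by
      obtain ⟨s, hs⟩ := (fsInd_irr θ.2).2.1 e
      exact hs (hreal s)
    have hψreal : ∀ g : G, ((ψ₀ : G → ℂ) g).im = 0 := fun g => by_contra fun hg =>
      hθν (heq ▸ (fsInd_irr ψ₀.2).2.2 ⟨g, hg⟩)
    rw [← heq]
    exact Cfsg.Agent.S0895.result (ψ₀ : G → ℂ) ψ₀.2 hψreal (charDegree (ψ₀ : G → ℂ))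
      (apply_one_eq_charDegree (isCharacter_of_isIrr ψ₀.2))
      ⟨t', by have := hψd ψ₀ hψ₀; omega⟩
  -- the alternating square
  set A : G → ℂ := fun g => ((θ : G → ℂ) g * (θ : G → ℂ) g - (θ : G → ℂ) (g * g)) / 2 with hA
  obtain ⟨m, hm⟩ := isCharacter_eq_sum (isCharacter_altSquare hθc)
  rw [← hA] at hm
  have hmi : ∀ χ : IrrCharacter G, classInner A (χ : G → ℂ) = (m χ : ℂ) := fun χ => by
    rw [hm]; exact classInner_sum_smul (fun χ => (m χ : ℂ)) χ
  have hm1 : m (Block.oneIrr G) = 0 := by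
    have h := hmi (Block.oneIrr G)
    have e : classInner A (Block.oneIrr G : G → ℂ) = (classInner (θ : G → ℂ) (θ : G → ℂ) -
        fsInd (θ : G → ℂ)) / 2 := by
      simp only [classInner, fsInd, hA, Block.oneIrr_apply, map_one, mul_one]
      rw [← mul_sub, ← Finset.sum_sub_distrib, mul_div_assoc, Finset.sum_div]
      refine congrArg _ (Finset.sum_congr rfl fun g _ => ?_)
      rw [Complex.conj_eq_iff_im.2 (hreal g)]
    rw [e, classInner_irr_self θ.2, hν, sub_self, zero_div] at h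
    exact_mod_cast h.symm
  have hAsing : ∀ g : G, p ∣ orderOf g → A g = 1 := fun g hg => by
    simp only [hA]
    rw [hθsing g hg, hθsing _ (hsing_sq g hg)]
    norm_num
  have hmY : ∀ ψ ∈ Y, m ψ = m θ + 1 := by
    intro ψ hψ
    have h := coeff_rel h1Y hθne hrel hAsing hψ
    rw [hmi, hmi, hmi, hm1] at h
    push_cast at h
    have : (m ψ : ℂ) = ((m θ + 1 : ℕ) : ℂ) := by push_cast; linear_combination -h
    exact_mod_cast this
  have hdegA : 2 * (∑ χ : IrrCharacter G, m χ * charDegree (χ : G → ℂ)) + (p - 1) =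
      (p - 1) * (p - 1) := by
    have h : (2 : ℂ) * A 1 = (θ : G → ℂ) 1 * (θ : G → ℂ) 1 - (θ : G → ℂ) 1 := by
      simp only [hA, one_mul]; ring
    rw [hm, Finset.sum_apply, Finset.sum_congr rfl (g := fun χ : IrrCharacter G =>
        ((m χ * charDegree (χ : G → ℂ) : ℕ) : ℂ)) (fun χ _ => by
          rw [Pi.smul_apply, smul_eq_mul, apply_one_eq_charDegree (isCharacter_of_isIrr χ.2),
            Nat.cast_mul]), ← Nat.cast_sum, apply_one_eq_charDegree hθc,
      show charDegree (θ : G → ℂ) = p - 1 by omega] at h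
    have h' : ((2 * (∑ χ : IrrCharacter G, m χ * charDegree (χ : G → ℂ)) + (p - 1) : ℕ) : ℂ) =
        (((p - 1) * (p - 1) : ℕ) : ℂ) := by push_cast at h ⊢; linear_combination h
    exact_mod_cast h'
  have hYt : Y.card = t' + 1 := by rw [hY]; omega
  have hsubY : ∑ χ ∈ Y, m χ * charDegree (χ : G → ℂ) = (m θ + 1) * ((t' + 1) * (2 * t' + 1)) := by
    rw [Finset.sum_congr rfl (g := fun _ => (m θ + 1) * (2 * t' + 1)) fun ψ hψ => by
        rw [hmY ψ hψ, show charDegree (ψ : G → ℂ) = 2 * t' + 1 by have := hψd ψ hψ; omega],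
      Finset.sum_const, smul_eq_mul, hYt]
    ring
  have hsplit : ∑ χ ∈ (Finset.univ \ Y), m χ * charDegree (χ : G → ℂ) +
      ∑ χ ∈ Y, m χ * charDegree (χ : G → ℂ) =
        ∑ χ : IrrCharacter G, m χ * charDegree (χ : G → ℂ) :=
    Finset.sum_sdiff (Finset.subset_univ _)
  have hp1 : p - 1 = 2 * (t' + 1) := by omega
  rw [hp1] at hdegA
  have hkey0 : ∑ χ ∈ (Finset.univ \ Y), m χ * charDegree (χ : G → ℂ) +
      m θ * ((t' + 1) * (2 * t' + 1)) = 0 := by
    rw [hsubY] at hsplit
    nlinarith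
  have hθ0 : m θ = 0 := by
    have h : m θ * ((t' + 1) * (2 * t' + 1)) = 0 := by omega
    exact (Nat.mul_eq_zero.1 h).resolve_right (by positivity)
  have hrest : ∀ χ : IrrCharacter G, χ ∉ Y → m χ = 0 := by
    intro χ hχ
    have h0 : ∑ χ ∈ (Finset.univ \ Y), m χ * charDegree (χ : G → ℂ) = 0 := by omega
    have := Finset.sum_eq_zero_iff.1 h0 χ (Finset.mem_sdiff.2 ⟨Finset.mem_univ _, hχ⟩)
    exact (Nat.mul_eq_zero.1 this).resolve_right (charDegree_pos χ.2).ne'
  have hid : ∀ g : G, ¬ p ∣ orderOf g → (θ : G → ℂ) (g * g) =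
      (θ : G → ℂ) g * (θ : G → ℂ) g - ((p : ℂ) - 1) * ((θ : G → ℂ) g - 1) := by
    intro g hg
    have h : (2 : ℂ) * A g = (θ : G → ℂ) g * (θ : G → ℂ) g - (θ : G → ℂ) (g * g) := by
      simp only [hA]; ring
    rw [hm, Finset.sum_apply, ← Finset.sum_subset (Finset.subset_univ Y)
      (fun χ _ hχ => by rw [hrest χ hχ]; simp),
      Finset.sum_congr rfl (g := fun _ => (θ : G → ℂ) g - 1) fun ψ hψ => by
        rw [hmY ψ hψ, hθ0, zero_add, Nat.cast_one, one_smul, hψval ψ hψ g hg],
      Finset.sum_const, hYt, nsmul_eq_mul] at h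
    rw [ht']
    push_cast at h ⊢
    linear_combination h
  -- integer values
  choose z hz using hint
  have hzb : ∀ g : G, z g ≤ (p : ℤ) - 1 ∧ (z g = (p : ℤ) - 1 → g = 1) := by
    intro g
    have h := norm_apply_le hθc g
    rw [hz, hθ1, show ((p : ℂ) - 1) = (((p : ℤ) - 1 : ℤ) : ℂ) by push_cast; ring,
      Complex.norm_intCast, Complex.norm_intCast] at h
    have h' : |z g| ≤ |(p : ℤ) - 1| := by exact_mod_cast h
    rw [abs_of_nonneg (show (0 : ℤ) ≤ (p : ℤ) - 1 by omega)] at h'
    refine ⟨le_trans (le_abs_self _) h', fun e => hfaith g ?_⟩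
    rw [hz, e, hθ1]; push_cast; ring
  have hzid : ∀ g : G, ¬ p ∣ orderOf g → z (g * g) = z g * z g - ((p : ℤ) - 1) * (z g - 1) := by
    intro g hg
    have h := hid g hg
    rw [hz, hz] at h
    exact_mod_cast h
  have hinv0 : ∀ g : G, orderOf g = 2 → z g = 0 := by
    intro g hg
    have hreg : ¬ p ∣ orderOf g := by rw [hg]; exact hp_odd
    have h := hzid g hreg
    have hg1 : g ≠ 1 := fun e => by rw [e, orderOf_one] at hg; omega
    have e1 : z (g * g) = (p : ℤ) - 1 := by
      have : (θ : G → ℂ) (g * g) = (θ : G → ℂ) 1 := by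
        rw [← pow_two, ← hg, pow_orderOf_eq_one]
      rw [hz, hθ1] at this
      exact_mod_cast this
    have h' : z g * (z g - ((p : ℤ) - 1)) = 0 := by linear_combination -h + e1
    rcases mul_eq_zero.1 h' with e | e
    · exact e
    · exact absurd ((hzb g).2 (by linarith)) hg1
  have hother : ∀ g : G, ¬ p ∣ orderOf g → g * g ≠ 1 → 1 ≤ z g := by
    intro g hg hg2
    by_contra hle
    have h := hzid g hg
    have h1 : (p : ℤ) - 1 ≤ z (g * g) := by
      have := mul_self_nonneg (z g)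
      nlinarith
    exact hg2 ((hzb (g * g)).2 (le_antisymm (hzb _).1 h1))
  -- counting
  set E := Finset.univ.filter fun g : G => p ∣ orderOf g with hE
  set I := Finset.univ.filter fun g : G => orderOf g = 2 with hI
  set O := Finset.univ.filter fun g : G => ¬ p ∣ orderOf g ∧ g * g ≠ 1 with hO
  have hpart : ∀ f : G → ℤ, ∑ g : G, f g =
      f 1 + ∑ g ∈ E, f g + ∑ g ∈ I, f g + ∑ g ∈ O, f g := by
    intro f
    rw [← Finset.sum_filter_add_sum_filter_not Finset.univ (fun g : G => p ∣ orderOf g)]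
    rw [← Finset.sum_filter_add_sum_filter_not (Finset.univ.filter fun g : G => ¬ p ∣ orderOf g)
      (fun g : G => g * g = 1)]
    rw [Finset.filter_filter, Finset.filter_filter]
    rw [show (Finset.univ.filter fun g : G => ¬ p ∣ orderOf g ∧ g * g = 1) = insert 1 I by
      ext g
      simp only [hI, Finset.mem_filter, Finset.mem_univ, true_and, Finset.mem_insert]
      constructor
      · rintro ⟨-, h2⟩
        rcases eq_or_ne g 1 with h | h
        · exact Or.inl h
        · exact Or.inr (orderOf_eq_prime (by rw [pow_two]; exact h2) h)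
      · rintro (rfl | h)
        · exact ⟨by rw [orderOf_one]; exact hp.out.not_dvd_one, one_mul 1⟩
        · exact ⟨by rw [h]; exact hp_odd, by rw [← pow_two, ← h, pow_orderOf_eq_one]⟩]
    rw [Finset.sum_insert (by simp [hI])]
    simp only [hE, hO, ← Ne.eq_def]
    ring
  have hsum0 : ∑ g : G, z g = 0 := by
    have h := classInner_irr_ne θ.2 (Block.oneIrr G).2 fun e => hθne (Subtype.ext e)
    simp only [classInner, Block.oneIrr_apply, map_one, mul_one, mul_eq_zero, inv_eq_zero,
      card_ne_zero_complex, false_or] at h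
    rw [Finset.sum_congr rfl fun g _ => hz g] at h
    exact_mod_cast h
  have hineq : (O.card : ℤ) + ((p : ℤ) - 1) ≤ E.card := by
    rw [hpart z] at hsum0
    have hz1 : z 1 = (p : ℤ) - 1 := by
      have h := hz 1; rw [hθ1] at h; exact_mod_cast h.symm
    have hzE : ∑ g ∈ E, z g = -(E.card : ℤ) := by
      rw [Finset.sum_congr rfl (g := fun _ => (-1 : ℤ)) fun g hg => by
        have h := hθsing g (Finset.mem_filter.1 hg).2
        rw [hz] at h; exact_mod_cast h]
      simp
    have hzI : ∑ g ∈ I, z g = 0 := Finset.sum_eq_zero fun g hg => hinv0 g (Finset.mem_filter.1 hg).2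
    have hzO : (O.card : ℤ) ≤ ∑ g ∈ O, z g := by
      refine le_trans (le_of_eq ?_) (Finset.sum_le_sum (f := fun _ => (1 : ℤ)) fun g hg =>
        hother g (Finset.mem_filter.1 hg).2.1 (Finset.mem_filter.1 hg).2.2)
      simp
    rw [hz1, hzE, hzI] at hsum0
    linarith
  have hcard : (Nat.card G : ℤ) = 1 + E.card + I.card + O.card := by
    have h := hpart fun _ => 1
    simpa [Nat.card_eq_fintype_card] using h
  -- the involutions
  obtain ⟨t, ht2, htN, htinv, htcoset⟩ := exists_inverter hP hself hN hp5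
  have hclass : ∀ u : G, orderOf u = 2 →
      IsConj u t ∧ ((Subgroup.centralizer ({u} : Set G)).index : ℂ) ^ 2 * ((p : ℂ) - 1) =
        (p : ℂ) * ((p : ℂ) - 2) * (Nat.card G : ℂ) := by
    intro u hu
    set k : ℂ := ((Subgroup.centralizer ({u} : Set G)).index : ℂ) with hk
    set a : IrrCharacter G → ℂ := fun χ =>
      (k * (χ : G → ℂ) u) ^ 2 / ((χ : G → ℂ) 1 * (Nat.card G : ℂ)) with ha
    set F : G → ℂ := fun y => ((pairsOf u y⁻¹).card : ℂ) with hF
    have hG : (Nat.card G : ℂ) ≠ 0 := Nat.cast_ne_zero.2 Nat.card_pos.ne'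
    have hFeq : F = ∑ χ : IrrCharacter G, a χ • (χ : G → ℂ) := by
      funext y
      have h := card_pairsOf u y⁻¹
      rw [inv_inv] at h
      refine mul_left_cancel₀ hG (h.trans ?_)
      rw [Finset.sum_apply, Finset.mul_sum]
      refine Finset.sum_congr rfl fun χ _ => ?_
      have h1 := irr_degree_ne_zero χ.2
      simp only [ha, hk, Pi.smul_apply, smul_eq_mul]
      field_simp
    -- the value on singular elements
    have hFsing : ∀ g : G, p ∣ orderOf g → F g = if IsConj u t then (p : ℂ) else 0 := by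
      intro g hg
      obtain ⟨h, y, hy, hy1, rfl⟩ := sing_conj hP hself hg
      have hFc : F (h * y * h⁻¹) = F y := by
        simp only [hFeq, Finset.sum_apply, Pi.smul_apply, smul_eq_mul]
        exact Finset.sum_congr rfl fun χ _ => by rw [isClassFunction_of_isIrr χ.2 y h]
      rw [hFc, hF]
      -- first components invert `y`, so they lie in the coset of `t`
      have hmem : ∀ q ∈ pairsOf u y⁻¹, ∃ w ∈ (P : Subgroup G), q.1 = t * w := by
        intro q hq
        obtain ⟨h1, h2, h3⟩ := (Finset.mem_filter.1 hq).2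
        have hsq : ∀ v : G, IsConj v u → v * v = 1 := by
          intro v hv
          obtain ⟨c, hc⟩ := isConj_iff.1 hv.symm
          rw [← hc, show c * u * c⁻¹ * (c * u * c⁻¹) = c * (u * u) * c⁻¹ by group,
            show u * u = 1 by rw [← pow_two, ← hu, pow_orderOf_eq_one]]
          group
        have e1 := hsq _ h1
        have e2 := hsq _ h2
        have hy' : y = q.2 * q.1 := by
          rw [← inv_inv y, ← h3, _root_.mul_inv_rev, inv_eq_of_mul_eq_one_right e1,
            inv_eq_of_mul_eq_one_right e2]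
        have hc1 : q.1 * y * q.1⁻¹ = y⁻¹ := by
          rw [← h3, hy', inv_eq_of_mul_eq_one_right e1]
          calc q.1 * (q.2 * q.1) * q.1 = q.1 * q.2 * (q.1 * q.1) := by group
            _ = q.1 * q.2 := by rw [e1, mul_one]
        have hC : t⁻¹ * q.1 ∈ C P := by
          rw [show C P = Subgroup.centralizer ({y} : Set G) from (star_of_card hP y hy hy1).symm,
            Subgroup.mem_centralizer_singleton_iff]
          calc t⁻¹ * q.1 * y = t⁻¹ * (q.1 * y * q.1⁻¹) * q.1 := by group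
            _ = t⁻¹ * y⁻¹ * q.1 := by rw [hc1]
            _ = t⁻¹ * (t * y * t⁻¹) * q.1 := by rw [htinv y hy]
            _ = y * (t⁻¹ * q.1) := by group
        rw [hself] at hC
        exact ⟨t⁻¹ * q.1, hC, by group⟩
      by_cases hut : IsConj u t
      · rw [if_pos hut]
        have hset : pairsOf u y⁻¹ = (Finset.univ.filter (· ∈ (P : Subgroup G))).image
            (fun w => (t * w, (t * w)⁻¹ * y⁻¹)) := by
          ext q
          rw [Finset.mem_image]
          constructor
          · intro hq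
            obtain ⟨w, hw, hw'⟩ := hmem q hq
            obtain ⟨-, -, h3⟩ := (Finset.mem_filter.1 hq).2
            refine ⟨w, by simpa using hw, Prod.ext hw'.symm ?_⟩
            show (t * w)⁻¹ * y⁻¹ = q.2
            rw [← hw', ← h3]; group
          · rintro ⟨w, hw, rfl⟩
            have hw' : w ∈ (P : Subgroup G) := by simpa using hw
            obtain ⟨o1, c1⟩ := htcoset w hw'
            have hti : t⁻¹ = t := inv_eq_of_mul_eq_one_right (by
              rw [← pow_two, ← ht2, pow_orderOf_eq_one])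
            have e : (t * w)⁻¹ * y⁻¹ = t * (w * y⁻¹) := by
              rw [inv_eq_of_mul_eq_one_right (by rw [← pow_two, ← o1, pow_orderOf_eq_one]),
                mul_assoc]
            refine Finset.mem_filter.2 ⟨Finset.mem_univ _, c1.trans hut.symm, ?_, by group⟩
            show IsConj ((t * w)⁻¹ * y⁻¹) u
            rw [e]
            exact (htcoset _ (mul_mem hw' (inv_mem hy))).2.trans hut.symm
        show ((pairsOf u y⁻¹).card : ℂ) = (p : ℂ)
        rw [hset, Finset.card_image_of_injective _ (fun a b e => mul_left_cancel (congrArg Prod.fst e)),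
          ← Fintype.card_subtype, ← Nat.card_eq_fintype_card, hP]
      · rw [if_neg hut, Nat.cast_eq_zero, Finset.card_eq_zero, Finset.eq_empty_iff_forall_notMem]
        intro q hq
        obtain ⟨w, hw, hw'⟩ := hmem q hq
        exact hut ((Finset.mem_filter.1 hq).2.1.symm.trans (hw' ▸ (htcoset w hw).2))
    have hcoef := coeff_rel h1Y hθne hrel hFsing hψ₀
    rw [hFeq, classInner_sum_smul, classInner_sum_smul, classInner_sum_smul] at hcoef
    simp only [ha] at hcoef
    rw [hψval ψ₀ hψ₀ u (by rw [hu]; exact hp_odd), hz u, hinv0 u hu, Block.oneIrr_apply,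
      Block.oneIrr_apply, apply_one_eq_charDegree (isCharacter_of_isIrr ψ₀.2),
      show ((charDegree (ψ₀ : G → ℂ) : ℕ) : ℂ) = (p : ℂ) - 2 by
        rw [← hψd ψ₀ hψ₀]; push_cast; ring] at hcoef
    push_cast at hcoef
    have hp2 : (p : ℂ) - 2 ≠ 0 := by
      rw [sub_ne_zero]
      intro e
      have : p = 2 := by exact_mod_cast e
      omega
    by_cases hut : IsConj u t
    · refine ⟨hut, ?_⟩
      rw [if_pos hut] at hcoef
      field_simp at hcoef
      linear_combination -hcoef
    · exfalso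
      rw [if_neg hut] at hcoef
      field_simp at hcoef
      have hk0 : k ≠ 0 := Nat.cast_ne_zero.2 Subgroup.index_ne_zero_of_finite
      have hp1' : (p : ℂ) - 1 ≠ 0 := by
        rw [sub_ne_zero]; exact_mod_cast hp.out.ne_one
      have h0 : k ^ 2 * ((p : ℂ) - 1) = 0 := by linear_combination -hcoef
      rcases mul_eq_zero.1 h0 with h | h
      · exact hk0 (pow_eq_zero_iff two_ne_zero |>.1 h)
      · exact hp1' h
  have hIcard : I.card = (Subgroup.centralizer ({t} : Set G)).index := by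
    rw [← card_conjClass_eq_index]
    congr 1
    ext g
    simp only [hI, Finset.mem_filter, Finset.mem_univ, true_and]
    refine ⟨fun hg => (hclass g hg).1, fun hg => ?_⟩
    obtain ⟨c, hc⟩ := isConj_iff.1 hg.symm
    rw [← hc, ← ht2]
    exact (MulAut.conj c).orderOf_eq t
  have hI2 : (I.card : ℤ) ^ 2 * ((p : ℤ) - 1) = (p : ℤ) * ((p : ℤ) - 2) * Nat.card G := by
    have h := (hclass t ht2).2
    rw [← hIcard] at h
    exact_mod_cast h
  -- the order
  have hG2 : Nat.card G = 2 * p * Nat.card (Sylow p G) := by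
    rw [← hN, P.card_eq_index_normalizer]
    exact (Subgroup.card_mul_index _).symm
  have hEc : E.card = Nat.card (Sylow p G) * (p - 1) := card_singular hP hself
  set S := Nat.card (Sylow p G) with hS
  have hpI : p ∣ I.card := by
    have h : (p : ℤ) ∣ (I.card : ℤ) ^ 2 * ((p : ℤ) - 1) :=
      ⟨((p : ℤ) - 2) * Nat.card G, by rw [hI2]; ring⟩
    have hprime : Prime (p : ℤ) := Nat.prime_iff_prime_int.1 hp.out
    rcases hprime.dvd_mul.1 h with h | h
    · exact Int.natCast_dvd_natCast.1 (hprime.dvd_of_dvd_pow h)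
    · exfalso
      have h1 : (p : ℤ) ∣ 1 := by simpa using dvd_sub (dvd_refl (p : ℤ)) h
      exact hp.out.not_dvd_one (Int.natCast_dvd_natCast.1 h1)
  obtain ⟨j, hj⟩ := hpI
  have hpz : (5 : ℤ) ≤ p := by exact_mod_cast hp5
  rw [hj, hG2] at hI2
  rw [hj, hG2, hEc] at hcard
  rw [hEc] at hineq
  push_cast [Nat.cast_sub (show 1 ≤ p by omega)] at hI2 hcard hineq
  have hjeq : (j : ℤ) ^ 2 * ((p : ℤ) - 1) = ((p : ℤ) - 2) * 2 * S := by
    refine mul_left_cancel₀ (pow_ne_zero 2 (show (p : ℤ) ≠ 0 by omega)) ?_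
    linear_combination hI2
  have hle : 2 * (S : ℤ) ≤ p * j + 2 - p := by linarith
  -- `j ≤ p - 2`
  have hjle : (j : ℤ) ≤ (p : ℤ) - 2 := by
    by_contra hh
    have h1 : ((p : ℤ) - 1) ≤ j := by omega
    have h2 : (j : ℤ) ^ 2 * ((p : ℤ) - 1) ≤ ((p : ℤ) - 2) * (p * j + 2 - p) := by
      rw [hjeq, mul_assoc]
      exact mul_le_mul_of_nonneg_left hle (by linarith)
    have h3 : ((p : ℤ) - 1) * ((p : ℤ) - 1) * j ≤ (j : ℤ) ^ 2 * ((p : ℤ) - 1) := by
      have := mul_le_mul_of_nonneg_left h1 (show (0 : ℤ) ≤ ((p : ℤ) - 1) * j from mul_nonneg (by omega) (by omega))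
      linarith
    nlinarith [mul_le_mul_of_nonneg_left h1 (show (0 : ℤ) ≤ 1 by norm_num)]
  -- `j ≡ ± 2`
  have hcong : (j : ZMod p) ^ 2 = 4 := by
    have h := congrArg (Int.cast : ℤ → ZMod p) hjeq
    push_cast at h
    rw [ZMod.natCast_self] at h
    have hS1 : (S : ZMod p) = 1 := by
      have := (ZMod.natCast_eq_natCast_iff _ _ _).2 (card_sylow_modEq_one p G)
      rw [Nat.cast_one] at this
      exact this
    rw [hS1] at h
    linear_combination -h
  have hfact : ((j : ZMod p) - ((2 : ℕ) : ZMod p)) * ((j + 2 : ℕ) : ZMod p) = 0 := by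
    push_cast; linear_combination hcong
  have hlt : j < p := by omega
  have hjval : j = p - 2 := by
    rcases mul_eq_zero.1 hfact with h | h
    · exfalso
      rw [sub_eq_zero, ZMod.natCast_eq_natCast_iff', Nat.mod_eq_of_lt hlt,
        Nat.mod_eq_of_lt (by omega)] at h
      subst h
      have : ((p : ℤ) - 2) ∣ 4 := ⟨2 * (S : ℤ) - 4, by push_cast at hjeq; linear_combination hjeq⟩
      have h4 := Int.le_of_dvd (by norm_num) this
      have hp6 : p ≤ 6 := by omega
      interval_cases p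
      · norm_num at this
      · exact absurd hp.out (by norm_num)
    · rw [ZMod.natCast_eq_zero_iff] at h
      obtain ⟨q, hq⟩ := h
      have : q = 1 := by
        by_contra hq1
        rcases Nat.lt_or_ge q 1 with h' | h'
        · interval_cases q; omega
        · have : p * 2 ≤ p * q := Nat.mul_le_mul_left p (by omega)
          omega
      subst this
      omega
  have hS2 : 2 * (S : ℤ) = ((p : ℤ) - 2) * ((p : ℤ) - 1) := by
    have hjz : (j : ℤ) = (p : ℤ) - 2 := by omega
    rw [hjz] at hjeq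
    refine mul_left_cancel₀ (show (p : ℤ) - 2 ≠ 0 by omega) ?_
    linear_combination -hjeq
  rw [hG2]
  have : ((2 * p * S : ℕ) : ℤ) = ((p * (p - 1) * (p - 2) : ℕ) : ℤ) := by
    push_cast [Nat.cast_sub (show 1 ≤ p by omega), Nat.cast_sub (show 2 ≤ p by omega)]
    linear_combination (p : ℤ) * hS2
  exact_mod_cast this

end Cfsg.Agent.Lib.Brauer43.IndexTwoP
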