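import Cfsg.Agent.Lib.Brauer43.Involution

/-!
# Conclusion in the second case
-/

set_option autoImplicit false
set_option linter.unusedSectionVars false
set_option linter.style.haveILetI false

namespace Cfsg.Agent.Lib.Brauer43

open Cfsg Cfsg.Agent.Lib Cfsg.Agent.Lib.Char Cfsg.Agent.Lib.DefectOne
open Cfsg.Agent.Lib.Char.UC (C N)
open scoped ComplexConjugate Classical

universe u

variable {p : ℕ} [hp : Fact p.Prime] {G : Type u} [Group G] [Fintype G] {P : Sylow p G} {n : ℕ}

/-- Averaging a class function against the permutation character. -/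
theorem sum_fixCount_mul (P : Sylow p G) (F : G → ℂ) (hF : IsClassFunction G F) :
    ∑ g : G, (fixCount p g : ℂ) * conj (F g) =
      ((N P).index : ℂ) * ∑ h : N P, conj (F h) := by
  have h := classInner_indFun (N P) (fun _ => (1 : ℂ)) hF
  simp only [classInner, indFun_one_eq, one_mul] at h
  have hN : (Nat.card (N P) : ℂ) ≠ 0 := Nat.cast_ne_zero.2 Nat.card_pos.ne'
  have hI : ((N P).index : ℂ) ≠ 0 := Nat.cast_ne_zero.2 Subgroup.index_ne_zero_of_finite
  rw [← (N P).index_mul_card, Nat.cast_mul] at h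
  field_simp at h
  linear_combination h

namespace Two

variable {d : Data P} {w : ℕ} {H : Hyp P n}

theorem card_centralizer_any (T : Two H d w) {v : G} (hv : orderOf v = 2) :
    Nat.card (Subgroup.centralizer ({v} : Set G)) = d.t * eN P := by
  obtain ⟨c, hc, hcP, h2⟩ := T.exists_involution
  have hvc := T.isConj_involution hc hcP h2 hv
  have e1 := CharTools.card_isConj_filter v
  have e2 := CharTools.card_isConj_filter c
  have : (Finset.univ.filter fun x => IsConj x v) = Finset.univ.filter fun x => IsConj x c := by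
    ext x
    simp only [Finset.mem_filter, Finset.mem_univ, true_and]
    exact ⟨fun h => h.trans hvc, fun h => h.trans hvc.symm⟩
  rw [this] at e1
  rw [← T.card_centralizer hc hcP h2]
  refine Nat.eq_of_mul_eq_mul_left ?_ (e1.trans e2.symm)
  exact Finset.card_pos.2 ⟨c, Finset.mem_filter.2 ⟨Finset.mem_univ _, IsConj.refl c⟩⟩

/-- A regular element with a fixed point is conjugate to an element of the normaliser. -/
theorem exists_conj_N (T : Two H d w) {g : G} (hg : ¬ p ∣ orderOf g) (hg1 : g ≠ 1)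
    (hfix : fixCount p g ≠ 0) :
    ∃ g', g' ∈ N P ∧ g' ∉ (P : Subgroup G) ∧ orderOf g' = orderOf g := by
  obtain ⟨Q, hQ⟩ : ∃ Q : Sylow p G, g • Q = Q := by
    by_contra hc
    push Not at hc
    exact hfix (fixCount_eq_zero_iff.2 hc)
  obtain ⟨x, rfl⟩ := MulAction.exists_smul_eq G P Q
  have ho : orderOf (x⁻¹ * g * x) = orderOf g := by simpa using (MulAut.conj x⁻¹).orderOf_eq g
  refine ⟨x⁻¹ * g * x, conj_mem_N hQ, H.not_mem_of_regular (by rwa [ho]) fun e => ?_, ho⟩
  rw [e, orderOf_one] at ho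
  exact hg1 (orderOf_eq_one_iff.1 ho.symm)

/-- The case without characters of degree `1 + n p` in the block. -/
theorem conclusion_zero (T : Two H d w) (hx : d.X.card = 0) :
    ∃ k q, 1 < k ∧ q = 2 ^ k ∧ p = q + 1 ∧ Nat.card G = (q + 1) * q * (q - 1) ∧
      (∀ v : G, v ≠ 1 → v * v = 1 → Nat.card (Subgroup.centralizer ({v} : Set G)) ∣ q) ∧
      Nat.card {g : G // g ≠ 1 ∧ g ^ q = 1} ≤ (q + 1) * (q - 1) := by
  obtain ⟨c, hc, hcP, h2⟩ := T.exists_involution
  have he : eN P = 2 := by rw [T.e_eq, hx, zero_mul]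
  have htm := d.t_mul H
  rw [he] at htm
  have hp3 := H.p_three
  have ht := d.two_le_t H
  set q := d.t * 2 with hq
  have hMcard : Nat.card (Subgroup.centralizer ({c} : Set G)) = q := by
    rw [T.card_centralizer hc hcP h2, he]
  have hinvol : ∀ g : G, g ≠ 1 → Even (orderOf g) → ¬ p ∣ orderOf g → orderOf g = 2 := by
    intro g hg1 hev hreg
    by_cases hfix : fixCount p g = 0
    · exact absurd hev (Nat.not_even_iff_odd.2 (T.rest_odd ⟨hreg, hfix⟩))
    obtain ⟨g', hg'N, hg'P, ho⟩ := T.exists_conj_N hreg hg1 hfix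
    have hd : orderOf (⟨g', Hyp.mem_Cc_self hg'N⟩ : Cc P g') ∣ Nat.card (Cc P g') :=
      orderOf_dvd_natCard _
    rw [Subgroup.orderOf_mk, T.card_Cc hg'N hg'P, he, ho] at hd
    have hne : orderOf g ≠ 1 := fun e => hg1 (orderOf_eq_one_iff.1 e)
    exact ((Nat.dvd_prime Nat.prime_two).1 hd).resolve_left hne
  -- the centraliser of `c` has exponent two
  have hexp : ∀ g ∈ Subgroup.centralizer ({c} : Set G), g * g = 1 := by
    intro g hg
    rcases eq_or_ne g 1 with rfl | hg1
    · exact one_mul 1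
    have hreg : ¬ p ∣ orderOf g := by
      intro h
      have h' := h.trans ((Subgroup.orderOf_mk _ hg).symm.dvd.trans (orderOf_dvd_natCard _))
      rw [hMcard] at h'
      have := Nat.le_of_dvd (by omega) h'
      omega
    by_cases hfix : fixCount p g = 0
    · exact (T.no_involution_commute (y := g) ⟨hreg, hfix⟩ h2
        (Subgroup.mem_centralizer_singleton_iff.1 hg).symm).elim
    obtain ⟨g', hg'N, hg'P, ho⟩ := T.exists_conj_N hreg hg1 hfix
    have hd : orderOf (⟨g', Hyp.mem_Cc_self hg'N⟩ : Cc P g') ∣ Nat.card (Cc P g') :=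
      orderOf_dvd_natCard _
    rw [Subgroup.orderOf_mk, T.card_Cc hg'N hg'P, he, ho] at hd
    rw [← pow_two]
    exact orderOf_dvd_iff_pow_eq_one.1 hd
  haveI : Fact (Nat.Prime 2) := ⟨Nat.prime_two⟩
  have hpg : IsPGroup 2 (Subgroup.centralizer ({c} : Set G)) := fun g =>
    ⟨1, Subtype.ext (by rw [pow_one, Subgroup.coe_pow, pow_two]; exact hexp g g.2)⟩
  obtain ⟨k, hk⟩ := IsPGroup.iff_card.1 hpg
  rw [hMcard] at hk
  have hk1 : 1 < k := by
    by_contra hh
    have : 2 ^ k ≤ 2 ^ 1 := Nat.pow_le_pow_right two_pos (by omega)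
    omega
  have hpq : p = q + 1 := by omega
  have hD : d.D = q - 1 := by have := T.De_one; omega
  have hG : Nat.card G = (q + 1) * q * (q - 1) := by
    rw [H.card_G, he, ← T.tD, ← hD, ← hpq, hq]; ring
  refine ⟨k, q, hk1, hk, hpq, hG, fun v hv1 hv2 => ?_, ?_⟩
  · rw [T.card_centralizer_any (orderOf_eq_two hv1 hv2), he]
  · refine le_trans (b := (Finset.univ.filter fun x => IsConj x c).card) ?_ (le_of_eq ?_)
    · rw [Nat.card_eq_fintype_card, Fintype.card_subtype]
      refine Finset.card_le_card fun g hg => ?_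
      obtain ⟨hg1, hgq⟩ := (Finset.mem_filter.1 hg).2
      refine Finset.mem_filter.2 ⟨Finset.mem_univ _, T.isConj_involution hc hcP h2 ?_⟩
      have hdvd := orderOf_dvd_of_pow_eq_one hgq
      rw [hk] at hdvd
      obtain ⟨j, -, hj⟩ := (Nat.dvd_prime_pow Nat.prime_two).1 hdvd
      have hj0 : j ≠ 0 := fun e => hg1 (orderOf_eq_one_iff.1 (by rw [hj, e, pow_zero]))
      refine hinvol g hg1 ?_ ?_
      · rw [hj]; exact Nat.even_pow.2 ⟨even_two, hj0⟩
      · rw [hj]
        exact fun h => H.p_ne_two ((Nat.prime_dvd_prime_iff_eq hp.out Nat.prime_two).1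
          (hp.out.dvd_of_dvd_pow h))
    · have h := CharTools.card_isConj_filter c
      rw [hMcard, hG] at h
      refine Nat.eq_of_mul_eq_mul_right (show 0 < q by omega) ?_
      rw [h]; ring

/-- The centraliser of an element without fixed points. -/
theorem centralizer_rest (T : Two H d w) {y : G} (hy : Rest p y) :
    Nat.card (Subgroup.centralizer ({y} : Set G)) = d.D ∧
    (∀ a ∈ Subgroup.centralizer ({y} : Set G), ∀ b ∈ Subgroup.centralizer ({y} : Set G),
      a * b = b * a) ∧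
    ∃ a : G, a ∈ Subgroup.normalizer (Subgroup.centralizer ({y} : Set G) : Set G) ∧
      a ∉ Subgroup.centralizer ({y} : Set G) := by
  obtain ⟨c, hc, hcP, h2⟩ := T.exists_involution
  have hcard := T.card_pairs hc hcP h2 hy
  obtain ⟨⟨a, b⟩, hab⟩ := Finset.card_pos.1 (hcard ▸ T.odd_D.pos)
  obtain ⟨ha, hb, hprod⟩ := (T.mem_pairs hc hcP h2).1 hab
  set K := Subgroup.centralizer ({y} : Set G) with hK
  have hai := (inv_facts ha).2
  have haa := sq_eq_one ha
  have hinvy : a * y * a⁻¹ = y⁻¹ := by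
    rw [← hprod, mul_inv_rev, hai, (inv_facts hb).2, ← mul_assoc, haa, one_mul]
  have hnorm : ∀ u ∈ K, a * u * a⁻¹ ∈ K := by
    intro u hu
    rw [hK, Subgroup.mem_centralizer_singleton_iff] at hu ⊢
    have h1 : u * y⁻¹ = y⁻¹ * u := (show Commute u y from hu).inv_right.eq
    have hy' : y = a * y⁻¹ * a⁻¹ := by
      rw [show a * y⁻¹ * a⁻¹ = (a * y * a⁻¹)⁻¹ by group, hinvy, inv_inv]
    calc a * u * a⁻¹ * y = a * u * a⁻¹ * (a * y⁻¹ * a⁻¹) := by rw [← hy']
      _ = a * (u * y⁻¹) * a⁻¹ := by group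
      _ = a * (y⁻¹ * u) * a⁻¹ := by rw [h1]
      _ = a * y⁻¹ * a⁻¹ * (a * u * a⁻¹) := by group
      _ = y * (a * u * a⁻¹) := by rw [← hy']
  -- `a` acts without fixed points
  have hfpf : ∀ u ∈ K, a * u * a⁻¹ = u → u = 1 := by
    intro u hu he
    by_contra hu1
    exact T.no_involution_commute
      (T.rest_of_commute hy hu1 (Subgroup.mem_centralizer_singleton_iff.1 hu)) ha
      (mul_inv_eq_iff_eq_mul.1 he)
  have hneg : ∀ u ∈ K, a * u * a⁻¹ = u⁻¹ := by
    intro u hu
    let f : ↥K → ↥K := fun v =>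
      ⟨(v : G)⁻¹ * (a * (v : G) * a⁻¹), mul_mem (inv_mem v.2) (hnorm v v.2)⟩
    have hf : Function.Injective f := fun v₁ v₂ e => by
      have e' : (v₁ : G)⁻¹ * (a * (v₁ : G) * a⁻¹) = (v₂ : G)⁻¹ * (a * (v₂ : G) * a⁻¹) :=
        congrArg Subtype.val e
      refine Subtype.ext (inv_mul_eq_one.1 ?_).symm
      have h3 : (v₂ : G)⁻¹ * v₁ = 1 ↔ (v₁ : G) * (v₂ : G)⁻¹ = 1 := by
        rw [inv_mul_eq_one, mul_inv_eq_one, eq_comm]
      rw [h3]
      refine hfpf _ (mul_mem v₁.2 (inv_mem v₂.2)) ?_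
      calc a * ((v₁ : G) * (v₂ : G)⁻¹) * a⁻¹
          = (v₁ : G) * ((v₁ : G)⁻¹ * (a * v₁ * a⁻¹)) * (a * v₂ * a⁻¹)⁻¹ := by group
        _ = (v₁ : G) * ((v₂ : G)⁻¹ * (a * v₂ * a⁻¹)) * (a * v₂ * a⁻¹)⁻¹ := by rw [e']
        _ = (v₁ : G) * (v₂ : G)⁻¹ := by group
    obtain ⟨v, hv⟩ := (Finite.injective_iff_surjective.1 hf) ⟨u, hu⟩
    have hv' : (v : G)⁻¹ * (a * (v : G) * a⁻¹) = u := congrArg Subtype.val hv
    calc a * u * a⁻¹ = a * ((v : G)⁻¹ * (a * (v : G) * a⁻¹)) * a⁻¹ := by rw [hv']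
      _ = a * (v : G)⁻¹ * a⁻¹ * ((a * a) * (v : G) * (a * a)⁻¹) := by group
      _ = (a * (v : G) * a⁻¹)⁻¹ * (v : G) := by rw [haa]; group
      _ = ((v : G)⁻¹ * (a * (v : G) * a⁻¹))⁻¹ := by group
      _ = u⁻¹ := by rw [hv']
  have hcomm : ∀ u ∈ K, ∀ v ∈ K, u * v = v * u := by
    intro u hu v hv
    have h1 := hneg (u * v) (mul_mem hu hv)
    rw [show a * (u * v) * a⁻¹ = a * u * a⁻¹ * (a * v * a⁻¹) by group, hneg u hu, hneg v hv,
      ← mul_inv_rev, inv_inj] at h1
    exact h1.symm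
  refine ⟨?_, hcomm, a, mem_normalizer_of_conj hnorm, fun h =>
    T.no_involution_commute hy ha (Subgroup.mem_centralizer_singleton_iff.1 h)⟩
  rw [← hcard, ← Fintype.card_coe, ← Nat.card_eq_fintype_card]
  have hyK : y ∈ K := Subgroup.mem_centralizer_singleton_iff.2 rfl
  have hinvol : ∀ u ∈ K, orderOf (a * u) = 2 := fun u hu => by
    refine orderOf_eq_two (fun e => ?_) ?_
    · have hau : a = u⁻¹ := eq_inv_of_mul_eq_one_left e
      exact T.no_involution_commute hy ha
        (Subgroup.mem_centralizer_singleton_iff.1 (hau ▸ inv_mem hu))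
    · calc a * u * (a * u) = a * u * a⁻¹ * (a * a) * u := by group
        _ = 1 := by rw [hneg u hu, haa]; group
  let F : ↥K → {q // q ∈ pairsOf c y} := fun u => ⟨(a * u, (a * u)⁻¹ * y),
    (T.mem_pairs hc hcP h2).2 ⟨hinvol u u.2, by
      have h' : (a * (u : G))⁻¹ * y = a * ((u : G) * y) := by
        rw [(inv_facts (hinvol u u.2)).2, mul_assoc]
      rw [h']; exact hinvol _ (mul_mem u.2 hyK), by rw [mul_inv_cancel_left]⟩⟩
  refine Nat.card_congr (Equiv.ofBijective F ⟨fun u v e => ?_, fun q => ?_⟩)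
  · exact Subtype.ext (mul_left_cancel (congrArg (fun q : {q // q ∈ pairsOf c y} => q.1.1) e))
  · obtain ⟨⟨a', b'⟩, hq⟩ := q
    obtain ⟨ha', hb', hprod'⟩ := (T.mem_pairs hc hcP h2).1 hq
    have hinvy' : a' * y * a'⁻¹ = y⁻¹ := by
      rw [← hprod', mul_inv_rev, (inv_facts ha').2, (inv_facts hb').2, ← mul_assoc, sq_eq_one ha',
        one_mul]
    have hmem : a⁻¹ * a' ∈ K := by
      rw [hK, Subgroup.mem_centralizer_singleton_iff]
      calc a⁻¹ * a' * y = a⁻¹ * (a' * y * a'⁻¹) * a' := by group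
        _ = a⁻¹ * (a * y * a⁻¹) * a' := by rw [hinvy', hinvy]
        _ = y * (a⁻¹ * a') := by group
    refine ⟨⟨_, hmem⟩, Subtype.ext ?_⟩
    show (a * (a⁻¹ * a'), (a * (a⁻¹ * a'))⁻¹ * y) = (a', b')
    rw [mul_inv_cancel_left, ← hprod', inv_mul_cancel_left]

theorem centralizer_eq_of_mem (T : Two H d w) {y u : G} (hy : Rest p y)
    (hu : u ∈ Subgroup.centralizer ({y} : Set G)) (hu1 : u ≠ 1) :
    Rest p u ∧ Subgroup.centralizer ({u} : Set G) = Subgroup.centralizer ({y} : Set G) := by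
  have hur := T.rest_of_commute hy hu1 (Subgroup.mem_centralizer_singleton_iff.1 hu)
  obtain ⟨h1, h2, -⟩ := T.centralizer_rest hy
  refine ⟨hur, (Subgroup.eq_of_le_of_card_ge (fun v hv =>
    Subgroup.mem_centralizer_singleton_iff.2 (h2 v hv u hu)) ?_).symm⟩
  rw [h1, (T.centralizer_rest hur).1]

theorem two_le_D (T : Two H d w) : 2 ≤ d.D := by
  have := T.De_one
  have := d.t_mul H
  have := Nat.mul_le_mul_right (eN P) (d.two_le_t H)
  have := H.two_le_e
  omega

/-- All the centralisers of elements without fixed points are conjugate. -/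
theorem exists_conj_centralizer (T : Two H d w) {y y' : G} (hy : Rest p y) (hy' : Rest p y') :
    ∃ g : G, g⁻¹ * y' * g ∈ Subgroup.centralizer ({y} : Set G) := by
  set r := d.D.minFac with hr
  have hrp : r.Prime := Nat.minFac_prime (by have := T.two_le_D; omega)
  haveI : Fact r.Prime := ⟨hrp⟩
  have key : ∀ z, Rest p z →
      ∃ R : Sylow r G, (R : Subgroup G) ≤ Subgroup.centralizer ({z} : Set G) := by
    intro z hz
    obtain ⟨hK, -, -⟩ := T.centralizer_rest hz
    obtain ⟨u, hu⟩ := exists_prime_orderOf_dvd_card'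
      (G := Subgroup.centralizer ({z} : Set G)) r (hK ▸ Nat.minFac_dvd _)
    have hu' : orderOf (u : G) = r := by rw [Subgroup.orderOf_coe]; exact hu
    obtain ⟨R, hR⟩ := (IsPGroup.of_card (n := 1) (G := Subgroup.zpowers (u : G))
      (by rw [Nat.card_zpowers, hu', pow_one])).exists_le_sylow
    have huR : (u : G) ∈ (R : Subgroup G) := hR (Subgroup.mem_zpowers _)
    have hu1 : (u : G) ≠ 1 := fun e => hrp.ne_one (by rw [← hu', e, orderOf_one])
    haveI : Nontrivial (R : Subgroup G) :=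
      nontrivial_of_ne ⟨_, huR⟩ 1 fun e => hu1 (congrArg Subtype.val e)
    haveI := R.2.center_nontrivial
    obtain ⟨⟨z₀, hz₀⟩, hz₀1⟩ := exists_ne (1 : Subgroup.center (R : Subgroup G))
    have hz₀1' : (z₀ : G) ≠ 1 := fun e => hz₀1 (Subtype.ext (Subtype.ext e))
    have hcz : ∀ v ∈ (R : Subgroup G), v * (z₀ : G) = (z₀ : G) * v := fun v hv =>
      congrArg Subtype.val (Subgroup.mem_center_iff.1 hz₀ ⟨v, hv⟩)
    obtain ⟨hur, hue⟩ := T.centralizer_eq_of_mem hz u.2 hu1
    have hz₀K : (z₀ : G) ∈ Subgroup.centralizer ({(u : G)} : Set G) :=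
      Subgroup.mem_centralizer_singleton_iff.2 (hcz u huR).symm
    obtain ⟨-, hze⟩ := T.centralizer_eq_of_mem hur hz₀K hz₀1'
    refine ⟨R, fun v hv => ?_⟩
    rw [← hue, ← hze, Subgroup.mem_centralizer_singleton_iff]
    exact hcz v hv
  obtain ⟨R, hR⟩ := key y hy
  obtain ⟨R', hR'⟩ := key y' hy'
  obtain ⟨g, hg⟩ := MulAction.exists_smul_eq G R R'
  obtain ⟨u, hu⟩ := exists_prime_orderOf_dvd_card' (G := (R : Subgroup G)) r (by
    have h1 : r ∣ Nat.card G := by
      rw [H.card_G, ← T.tD]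
      exact dvd_mul_of_dvd_right (dvd_mul_of_dvd_right (Nat.minFac_dvd _) _) _
    exact R.dvd_card_of_dvd_card h1)
  have hu1 : (u : G) ≠ 1 := fun e => hrp.ne_one (by
    rw [← hu, ← Subgroup.orderOf_coe, e, orderOf_one])
  have hgu : g * (u : G) * g⁻¹ ∈ (R' : Subgroup G) := by
    rw [← hg]
    exact Subgroup.smul_mem_pointwise_smul _ (MulAut.conj g) _ u.2
  have hgu1 : g * (u : G) * g⁻¹ ≠ 1 := fun e => hu1 (conj_eq_one_iff.1 e)
  obtain ⟨-, h1⟩ := T.centralizer_eq_of_mem hy (hR u.2) hu1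
  obtain ⟨-, h2⟩ := T.centralizer_eq_of_mem hy' (hR' hgu) hgu1
  refine ⟨g, ?_⟩
  have h3 : y' ∈ Subgroup.centralizer ({g * (u : G) * g⁻¹} : Set G) := by
    rw [h2]; exact Subgroup.mem_centralizer_singleton_iff.2 rfl
  rw [Subgroup.mem_centralizer_singleton_iff] at h3
  rw [← h1, Subgroup.mem_centralizer_singleton_iff]
  calc g⁻¹ * y' * g * u = g⁻¹ * (y' * (g * u * g⁻¹)) * g := by group
    _ = g⁻¹ * (g * u * g⁻¹ * y') * g := by rw [h3]
    _ = u * (g⁻¹ * y' * g) := by group

/-- The number of elements without fixed points. -/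
theorem card_rest_mul (T : Two H d w) {y : G} (hy : Rest p y) :
    (Finset.univ.filter fun g : G => Rest p g).card *
        Nat.card (Subgroup.normalizer (Subgroup.centralizer ({y} : Set G) : Set G)) =
      Nat.card G * (d.D - 1) := by
  set K := Subgroup.centralizer ({y} : Set G) with hK
  set NK := Subgroup.normalizer (K : Set G) with hNK
  set K1 := (Finset.univ.filter (· ∈ K)).erase (1 : G) with hK1
  have hK1card : K1.card = d.D - 1 := by
    rw [hK1, Finset.card_erase_of_mem (Finset.mem_filter.2 ⟨Finset.mem_univ _, one_mem _⟩),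
      ← Fintype.card_subtype, ← Nat.card_eq_fintype_card]
    exact congrArg (· - 1) (T.centralizer_rest hy).1
  have hK1rest : ∀ u ∈ K1, Rest p u ∧ Subgroup.centralizer ({u} : Set G) = K := fun u hu =>
    T.centralizer_eq_of_mem hy (Finset.mem_filter.1 (Finset.mem_of_mem_erase hu)).2
      (Finset.ne_of_mem_erase hu)
  have hmaps : ∀ z ∈ (Finset.univ : Finset G) ×ˢ K1, (fun z : G × G => z.1 * z.2 * z.1⁻¹) z ∈
      Finset.univ.filter fun g : G => Rest p g := fun z hz =>
    Finset.mem_filter.2 ⟨Finset.mem_univ _, (hK1rest z.2 (Finset.mem_product.1 hz).2).1.conj z.1⟩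
  have hprod : ((Finset.univ : Finset G) ×ˢ K1).card = Nat.card G * (d.D - 1) := by
    rw [Finset.card_product, hK1card, Finset.card_univ, Nat.card_eq_fintype_card]
  rw [← hprod, Finset.card_eq_sum_card_fiberwise (s := (Finset.univ : Finset G) ×ˢ K1) hmaps]
  symm
  rw [← smul_eq_mul, ← Finset.sum_const]
  refine Finset.sum_congr rfl fun y' hy' => ?_
  have hy'r := (Finset.mem_filter.1 hy').2
  obtain ⟨g₀, hg₀⟩ := T.exists_conj_centralizer hy hy'r
  have hg₀1 : g₀⁻¹ * y' * g₀ ≠ 1 := fun e => hy'r.ne_one (by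
    have h : g₀ * (g₀⁻¹ * y' * g₀) * g₀⁻¹ = y' := by group
    rw [← h, e]; group)
  obtain ⟨hu₀, hu₀K⟩ := T.centralizer_eq_of_mem hy hg₀ hg₀1
  rw [Nat.card_eq_fintype_card, Fintype.card_subtype]
  refine Finset.card_bij' (fun z _ => g₀⁻¹ * z.1)
    (fun m _ => (g₀ * m, m⁻¹ * (g₀⁻¹ * y' * g₀) * m)) ?_ ?_ ?_ ?_
  · intro z hz
    obtain ⟨hz1, hze⟩ := Finset.mem_filter.1 hz
    obtain ⟨-, hzK⟩ := hK1rest z.2 (Finset.mem_product.1 hz1).2
    refine Finset.mem_filter.2 ⟨Finset.mem_univ _, mem_normalizer_of_conj fun v hv => ?_⟩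
    rw [hK, ← hu₀K, Subgroup.mem_centralizer_singleton_iff]
    have hv' : v * z.2 = z.2 * v := Subgroup.mem_centralizer_singleton_iff.1 (by rw [hzK]; exact hv)
    change z.1 * z.2 * z.1⁻¹ = y' at hze
    rw [← hze]
    calc g₀⁻¹ * z.1 * v * (g₀⁻¹ * z.1)⁻¹ * (g₀⁻¹ * (z.1 * z.2 * z.1⁻¹) * g₀)
        = g₀⁻¹ * z.1 * (v * z.2) * z.1⁻¹ * g₀ := by group
      _ = g₀⁻¹ * z.1 * (z.2 * v) * z.1⁻¹ * g₀ := by rw [hv']
      _ = g₀⁻¹ * (z.1 * z.2 * z.1⁻¹) * g₀ * (g₀⁻¹ * z.1 * v * (g₀⁻¹ * z.1)⁻¹) := by group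
  · intro m hm
    refine Finset.mem_filter.2 ⟨Finset.mem_product.2 ⟨Finset.mem_univ _, Finset.mem_erase.2
      ⟨?_, Finset.mem_filter.2 ⟨Finset.mem_univ _, ?_⟩⟩⟩, ?_⟩
    · intro e
      refine hg₀1 ?_
      have h : m * (m⁻¹ * (g₀⁻¹ * y' * g₀) * m) * m⁻¹ = g₀⁻¹ * y' * g₀ := by group
      rw [← h, show m⁻¹ * (g₀⁻¹ * y' * g₀) * m = 1 from e]; group
    · have h := (Subgroup.mem_normalizer_iff.1 (inv_mem (Finset.mem_filter.1 hm).2)
        (g₀⁻¹ * y' * g₀)).1 hg₀
      rwa [inv_inv] at h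
    · show g₀ * m * (m⁻¹ * (g₀⁻¹ * y' * g₀) * m) * (g₀ * m)⁻¹ = y'
      group
  · intro z hz
    obtain ⟨-, hze⟩ := Finset.mem_filter.1 hz
    change z.1 * z.2 * z.1⁻¹ = y' at hze
    refine Prod.ext (by simp) ?_
    show (g₀⁻¹ * z.1)⁻¹ * (g₀⁻¹ * y' * g₀) * (g₀⁻¹ * z.1) = z.2
    rw [← hze]; group
  · intro m _
    simp

/-- The elements of `G` counted by their fixed points. -/
theorem card_split (T : Two H d w) :
    Nat.card G = 1 + (p - 1) * (1 + n * p) + p * d.D * (eN P - 1) +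
      (Finset.univ.filter fun g : G => Rest p g).card := by
  set S := Finset.univ.filter fun g : G => p ∣ orderOf g with hS
  set F := Finset.univ.filter fun g : G => g ≠ 1 ∧ ¬ p ∣ orderOf g ∧ fixCount p g ≠ 0 with hF
  set R := Finset.univ.filter fun g : G => Rest p g with hR
  have hsplit : (Finset.univ : Finset G) = {1} ∪ S ∪ F ∪ R := by
    ext g
    simp only [Finset.mem_univ, true_iff, Finset.mem_union, Finset.mem_singleton]
    by_cases h1 : g = 1
    · exact Or.inl (Or.inl (Or.inl h1))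
    by_cases h2 : p ∣ orderOf g
    · exact Or.inl (Or.inl (Or.inr (Finset.mem_filter.2 ⟨Finset.mem_univ _, h2⟩)))
    by_cases h3 : fixCount p g = 0
    · exact Or.inr (Finset.mem_filter.2 ⟨Finset.mem_univ _, h2, h3⟩)
    · exact Or.inl (Or.inr (Finset.mem_filter.2 ⟨Finset.mem_univ _, h1, h2, h3⟩))
  have h1 : (1 : G) ∉ S := by simp [hS, hp.out.ne_one]
  have hcard : Nat.card G = 1 + S.card + F.card + R.card := by
    rw [Nat.card_eq_fintype_card, ← Finset.card_univ, hsplit, Finset.card_union_of_disjoint,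
      Finset.card_union_of_disjoint, Finset.card_union_of_disjoint, Finset.card_singleton]
    · simpa using h1
    · rw [Finset.disjoint_left]
      intro g hg hgF
      obtain ⟨hg1, hgp, -⟩ := (Finset.mem_filter.1 hgF).2
      rcases Finset.mem_union.1 hg with h | h
      · exact hg1 (Finset.mem_singleton.1 h)
      · exact hgp (Finset.mem_filter.1 h).2
    · rw [Finset.disjoint_left]
      intro g hg hgR
      have hr : Rest p g := (Finset.mem_filter.1 hgR).2
      rcases Finset.mem_union.1 hg with h | h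
      · rcases Finset.mem_union.1 h with h | h
        · exact hr.ne_one (Finset.mem_singleton.1 h)
        · exact hr.1 (Finset.mem_filter.1 h).2
      · exact (Finset.mem_filter.1 h).2.2.2 hr.2
  -- the singular elements
  have hSfix : ∀ g : G, p ∣ orderOf g → fixCount p g = 1 := by
    intro g hg
    obtain ⟨x, hx, hx1⟩ := H.exists_conj_singular hg
    rw [← H.fixCount_mem hx hx1, fixCount, fixCount]
    refine Nat.card_congr (Equiv.subtypeEquiv (MulAction.toPerm x) fun Q => ?_)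
    show g • Q = Q ↔ (x * g * x⁻¹) • x • Q = x • Q
    rw [mul_smul, mul_smul, inv_smul_smul, smul_left_cancel_iff]
  have hN : ∀ h : N P, (p ∣ orderOf (h : G)) ↔ ((h : G) ∈ (P : Subgroup G) ∧ (h : G) ≠ 1) := by
    intro h
    constructor
    · intro hd
      refine ⟨?_, fun e => ?_⟩
      · by_contra hP
        exact H.regular_of_mem_N h.2 hP hd
      · rw [e, orderOf_one] at hd
        exact hp.out.not_dvd_one hd
    · rintro ⟨hP, h1⟩
      rw [H.orderOf_mem hP h1]
  have hScount : S.card = (p - 1) * (1 + n * p) := by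
    have h := sum_fixCount_mul P (fun g => if p ∣ orderOf g then (1 : ℂ) else 0) (fun g x => by
      show (if p ∣ orderOf (x * g * x⁻¹) then (1 : ℂ) else 0) = _
      rw [show orderOf (x * g * x⁻¹) = orderOf g by simpa using (MulAut.conj x).orderOf_eq g])
    simp only [apply_ite (starRingEnd ℂ), map_one, map_zero, mul_ite, mul_one, mul_zero] at h
    rw [← Finset.sum_filter, ← Finset.sum_filter, Finset.sum_congr rfl (g := fun _ => (1 : ℂ))
      (fun g hg => by rw [hSfix g (Finset.mem_filter.1 hg).2, Nat.cast_one]), Finset.sum_const,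
      Finset.sum_const, nsmul_eq_mul, nsmul_eq_mul, mul_one, mul_one, H.index_N] at h
    have h2 : (Finset.univ.filter fun g : N P => p ∣ orderOf (g : G)).card = p - 1 := by
      suffices h' : (Finset.univ.filter fun g : N P => p ∣ orderOf (g : G)).card =
          ((Finset.univ.filter (· ∈ (P : Subgroup G))).erase 1).card by
        rwa [Finset.card_erase_of_mem (Finset.mem_filter.2 ⟨Finset.mem_univ (1 : G), one_mem _⟩),
          H.card_filter] at h'
      refine Finset.card_bij (fun g _ => (g : G)) ?_ (fun a _ b _ e => Subtype.ext e) ?_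
      · intro g hg
        obtain ⟨hP, h1⟩ := (hN g).1 (Finset.mem_filter.1 hg).2
        exact Finset.mem_erase.2 ⟨h1, Finset.mem_filter.2 ⟨Finset.mem_univ _, hP⟩⟩
      · intro x hx
        have hP := (Finset.mem_filter.1 (Finset.mem_of_mem_erase hx)).2
        exact ⟨⟨x, H.P_le_N hP⟩, Finset.mem_filter.2 ⟨Finset.mem_univ _,
          (hN ⟨x, H.P_le_N hP⟩).2 ⟨hP, Finset.ne_of_mem_erase hx⟩⟩, rfl⟩
    rw [h2] at h
    rw [mul_comm]
    exact_mod_cast h
  -- the regular elements with fixed points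
  have hFfix : ∀ g : G, g ≠ 1 → ¬ p ∣ orderOf g → fixCount p g ≠ 0 → fixCount p g = d.t := by
    intro g hg1 hgp hfix
    rw [ne_eq, fixCount_eq_zero_iff] at hfix
    push Not at hfix
    obtain ⟨Q, hQ⟩ := hfix
    obtain ⟨x, rfl⟩ := MulAction.exists_smul_eq G P Q
    have hne : x⁻¹ * g * x ≠ 1 := fun e => hg1 (by
      have : x * (x⁻¹ * g * x) * x⁻¹ = g := by group
      rw [← this, e]; group)
    have hreg := Hyp.conj_regular (p := p) hgp x⁻¹
    rw [inv_inv] at hreg
    rw [T.t_eq, ← T.fixCount_N (conj_mem_N hQ) (H.not_mem_of_regular hreg hne), fixCount, fixCount]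
    refine Nat.card_congr (Equiv.subtypeEquiv (MulAction.toPerm x⁻¹) fun R => ?_)
    show g • R = R ↔ (x⁻¹ * g * x) • x⁻¹ • R = x⁻¹ • R
    rw [mul_smul, smul_inv_smul, mul_smul, smul_left_cancel_iff]
  have hFcount : d.t * F.card = (1 + n * p) * (p * eN P - p) := by
    have h := sum_fixCount_mul P (fun g => if g ≠ 1 ∧ ¬ p ∣ orderOf g then (1 : ℂ) else 0)
      (fun g x => by
        show (if x * g * x⁻¹ ≠ 1 ∧ ¬ p ∣ orderOf (x * g * x⁻¹) then (1 : ℂ) else 0) = _
        rw [show orderOf (x * g * x⁻¹) = orderOf g by simpa using (MulAut.conj x).orderOf_eq g]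
        simp [conj_eq_one_iff])
    simp only [apply_ite (starRingEnd ℂ), map_one, map_zero, mul_ite, mul_one, mul_zero] at h
    rw [← Finset.sum_filter, ← Finset.sum_filter, Finset.sum_const, nsmul_eq_mul, mul_one,
      ← Finset.sum_filter_add_sum_filter_not (Finset.univ.filter _) (fun g => fixCount p g = 0),
      Finset.sum_eq_zero (fun g hg => by rw [(Finset.mem_filter.1 hg).2, Nat.cast_zero]), zero_add,
      Finset.filter_filter, Finset.sum_congr rfl (g := fun _ => (d.t : ℂ)) (fun g hg => by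
        obtain ⟨⟨hg1, hgp⟩, hfix⟩ := (Finset.mem_filter.1 hg).2
        rw [hFfix g hg1 hgp hfix]), Finset.sum_const, nsmul_eq_mul, H.index_N] at h
    have h2 : (Finset.univ.filter fun g : N P => (g : G) ≠ 1 ∧ ¬ p ∣ orderOf (g : G)).card =
        p * eN P - p := by
      have e1 : (Finset.univ.filter fun g : N P => (g : G) ≠ 1 ∧ ¬ p ∣ orderOf (g : G)) =
          Finset.univ \ (Finset.univ.filter fun g : N P => (g : G) ∈ (P : Subgroup G)) := by
        ext g
        simp only [Finset.mem_sdiff, Finset.mem_univ, Finset.mem_filter, true_and, hN g]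
        by_cases hg : (g : G) = 1
        · simp [hg]
        · simp [hg]
      have e2 : (Finset.univ.filter fun g : N P => (g : G) ∈ (P : Subgroup G)).card = p := by
        refine Eq.trans (b := (Finset.univ.filter (· ∈ (P : Subgroup G))).card) ?_ H.card_filter
        refine Finset.card_bij (fun g _ => (g : G)) ?_ (fun a _ b _ e => Subtype.ext e) ?_
        · exact fun g hg => Finset.mem_filter.2 ⟨Finset.mem_univ _, (Finset.mem_filter.1 hg).2⟩
        · intro x hx
          exact ⟨⟨x, H.P_le_N (Finset.mem_filter.1 hx).2⟩,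
            Finset.mem_filter.2 ⟨Finset.mem_univ _, (Finset.mem_filter.1 hx).2⟩, rfl⟩
      rw [e1, Finset.card_sdiff_of_subset (Finset.subset_univ _), Finset.card_univ, e2,
        ← Nat.card_eq_fintype_card, H.card_N]
    rw [h2] at h
    have e3 : (Finset.univ.filter fun g : G => (g ≠ 1 ∧ ¬ p ∣ orderOf g) ∧ ¬ fixCount p g = 0) =
        F := by
      ext g; simp [hF, and_assoc]
    rw [e3] at h
    rw [mul_comm d.t]
    exact_mod_cast h
  have hFc : F.card = p * d.D * (eN P - 1) := by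
    refine Nat.eq_of_mul_eq_mul_left (d.t_pos H) ?_
    rw [hFcount, ← T.tD, Nat.mul_sub_one, Nat.mul_sub, Nat.mul_sub]
    congr 1 <;> ring
  rw [hcard, hScount, hFc]

/-- The case with characters of degree `1 + n p`. -/
theorem conclusion_pos (T : Two H d w) (hx : 1 ≤ d.X.card) : n = 1 ∧ d.t = 2 := by
  have hsplit := T.card_split
  have hp3 := H.p_three
  have ht := d.two_le_t H
  have htm := d.t_mul H
  have he4 : 4 ≤ eN P := by
    have := Nat.mul_le_mul hx ht
    rw [T.e_eq]; omega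
  have hDe := T.De_one
  have hD2 := T.two_le_D
  have htz : (d.t : ℤ) * (eN P : ℕ) = (p : ℤ) - 1 := T.tz
  have hDz : (d.D : ℤ) + (eN P : ℕ) = p := by exact_mod_cast hDe
  have htD : (d.t : ℤ) * d.D = 1 + n * p := by exact_mod_cast T.tD
  set R := (Finset.univ.filter fun g : G => Rest p g).card with hR
  have hz : (p : ℤ) * (eN P : ℕ) * (1 + n * p) = 1 + ((p : ℤ) - 1) * (1 + n * p) +
      p * d.D * ((eN P : ℕ) - 1) + R := by
    rw [H.card_G] at hsplit
    have h' := congrArg (fun k : ℕ => (k : ℤ)) hsplit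
    simp only [Nat.cast_add, Nat.cast_mul, Nat.cast_one, Nat.cast_sub hp.out.pos,
      Nat.cast_sub (show 1 ≤ eN P by omega)] at h'
    exact h'
  set e := ((eN P : ℕ) : ℤ) with hee
  set t := (d.t : ℤ) with htt
  set D := (d.D : ℤ) with hDD
  have he' : (4 : ℤ) ≤ e := by simp only [e]; exact_mod_cast he4
  have ht' : (2 : ℤ) ≤ t := by simp only [t]; exact_mod_cast ht
  have hD' : (2 : ℤ) ≤ D := by simp only [D]; exact_mod_cast hD2
  have hp' : (0 : ℤ) < p := by exact_mod_cast hp.out.pos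
  -- `R = p (t - 1) e (t e - t - e + 2)`
  have hRz : (R : ℤ) = p * (t - 1) * (e * (t * e - t - e + 2)) := by
    have e1 : D = t * e + 1 - e := by linarith
    have e2 : (p : ℤ) = t * e + 1 := by linarith
    rw [← htD, e1, e2] at hz
    rw [e2]
    linear_combination -hz
  have hRpos : R ≠ 0 := by
    intro h0
    rw [h0, Nat.cast_zero] at hRz
    have : (0 : ℤ) < p * (t - 1) * (e * (t * e - t - e + 2)) := by
      refine mul_pos (mul_pos hp' (by linarith)) (mul_pos (by linarith) ?_)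
      nlinarith
    omega
  obtain ⟨y, hy⟩ := Finset.card_pos.1 (Nat.pos_of_ne_zero hRpos)
  have hyr : Rest p y := (Finset.mem_filter.1 hy).2
  have hmul := T.card_rest_mul hyr
  set K := Subgroup.centralizer ({y} : Set G)
  obtain ⟨hK, -, a, ha, haK⟩ := T.centralizer_rest hyr
  obtain ⟨h, hh⟩ := Subgroup.card_dvd_of_le (show K ≤ Subgroup.normalizer (K : Set G) from
    Subgroup.le_normalizer)
  have h2 : 2 ≤ h := by
    by_contra hlt
    have h0 : h ≠ 0 := fun e => by rw [e, mul_zero] at hh; exact Nat.card_pos.ne' hh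
    have h1 : h = 1 := by omega
    have heq : K = Subgroup.normalizer (K : Set G) :=
      Subgroup.eq_of_le_of_card_ge Subgroup.le_normalizer (by rw [hh, h1, mul_one])
    exact haK (heq.ge ha)
  rw [hh, hK, H.card_G, ← hR] at hmul
  have hmz : (R : ℤ) * (D * h) = p * e * (1 + n * p) * (D - 1) := by
    have h' := congrArg (fun k : ℕ => (k : ℤ)) hmul
    simp only [Nat.cast_add, Nat.cast_mul, Nat.cast_one,
      Nat.cast_sub (show 1 ≤ d.D by omega)] at h'
    exact h'
  rw [hRz, ← htD, show D - 1 = (t - 1) * e by linarith] at hmz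
  have key : (p : ℤ) * (t - 1) * e * D * ((h : ℤ) * (t * e - t - e + 2)) =
      p * (t - 1) * e * D * (e * t) := by linear_combination hmz
  have hne : (p : ℤ) * (t - 1) * e * D ≠ 0 := by
    have : (0 : ℤ) < p * (t - 1) * e * D :=
      mul_pos (mul_pos (mul_pos hp' (by linarith)) (by linarith)) (by linarith)
    omega
  have key' := mul_left_cancel₀ hne key
  have h2' : (2 : ℤ) ≤ h := by exact_mod_cast h2
  have hte : (t - 2) * (e - 2) ≤ 0 := by
    nlinarith [mul_le_mul_of_nonneg_right h2' (show (0 : ℤ) ≤ t * e - t - e + 2 by nlinarith)]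
  have ht2 : d.t = 2 := by
    by_contra hne'
    have : (3 : ℤ) ≤ t := by
      have : 3 ≤ d.t := by omega
      simp only [t]; exact_mod_cast this
    nlinarith
  refine ⟨?_, ht2⟩
  have := T.t_eq
  omega

end Two

end Cfsg.Agent.Lib.Brauer43
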