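import Cfsg.Agent.Lib.Brauer43.CaseOne
import Cfsg.Agent.Lib.Brauer43.TwoMain
import Cfsg.Agent.Lib.PSLTwo.RecogPrime
import Cfsg.Agent.Lib.PSLTwo.RecogTwo
import Mathlib.FieldTheory.Finite.GaloisField

/-!
# Perfect groups with few Sylow subgroups of prime order
-/

set_option autoImplicit false
set_option linter.unusedSectionVars false
set_option linter.style.haveILetI false

namespace Cfsg.Agent.Lib.Brauer43

open Cfsg Cfsg.Agent.Lib Cfsg.Agent.Lib.Char Cfsg.Agent.Lib.DefectOne
open Cfsg.Agent.Lib.Char.UC (C N)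

universe u

variable {p : ℕ} [hp : Fact p.Prime] {G : Type u} [Group G] [Fintype G] {P : Sylow p G} {n : ℕ}

/-- Brauer's theorem on perfect groups with a self-centralising subgroup of prime order and few
Sylow subgroups. -/
theorem iso_psl (H : Hyp P n) :
    (∃ (F : Type) (_ : Field F) (_ : Fintype F), Fintype.card F = p ∧ 3 < p ∧
      Nonempty (G ≃* Matrix.ProjectiveSpecialLinearGroup (Fin 2) F)) ∨
    (∃ (m : ℕ) (F : Type) (_ : Field F) (_ : Fintype F), Fintype.card F = 2 ^ m ∧ p = 2 ^ m + 1 ∧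
      3 < p ∧ Nonempty (G ≃* Matrix.ProjectiveSpecialLinearGroup (Fin 2) F)) := by
  haveI := H.isSimple
  obtain ⟨d⟩ := H.nonempty_data
  have hp3 := H.p_three
  have ht := d.two_le_t H
  have htm := d.t_mul H
  have he := H.two_le_e
  have hp5 : 5 ≤ p := by
    have := Nat.mul_le_mul ht he
    omega
  have hprime : ∀ (_ : n = 1) (_ : d.t = 2),
      ∃ (F : Type) (_ : Field F) (_ : Fintype F), Fintype.card F = p ∧ 3 < p ∧
        Nonempty (G ≃* Matrix.ProjectiveSpecialLinearGroup (Fin 2) F) := by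
    intro hn ht2
    refine ⟨ZMod p, inferInstance, inferInstance, ZMod.card p, by omega,
      PSLTwo.iso_psl_of_sylow (d := eN P) hp5 (by rw [← htm, ht2]) ?_ ?_⟩
    · rw [H.card_G, hn, one_mul]; ring
    · rw [H.card_syl, hn, one_mul, add_comm]
  rcases d.cases H with ⟨hε, hD, hy⟩ | ⟨hε, w, hw, htw, htD, hDe, hy⟩
  · obtain ⟨h1, h2⟩ := caseOne H d hε hD hy
    exact Or.inl (hprime h1 h2)
  · have T : Two H d w := ⟨hε, hw, htw, htD, hDe, hy⟩
    rcases Nat.eq_zero_or_pos d.X.card with hx | hx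
    · obtain ⟨k, q, hk, hq, hpq, hG, hC, hcount⟩ := T.conclusion_zero hx
      haveI : Fact (Nat.Prime 2) := ⟨Nat.prime_two⟩
      letI : Fintype (GaloisField 2 k) := Fintype.ofFinite _
      have hF : Fintype.card (GaloisField 2 k) = q := by
        rw [← Nat.card_eq_fintype_card, GaloisField.card 2 k (by omega), hq]
      exact Or.inr ⟨k, GaloisField 2 k, inferInstance, inferInstance, hF.trans hq,
        by rw [← hq, hpq], by omega, PSLTwo.iso_psl_of_two_elements hk hq hG hC hcount hF⟩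
    · obtain ⟨h1, h2⟩ := T.conclusion_pos hx
      exact Or.inl (hprime h1 h2)

end Cfsg.Agent.Lib.Brauer43
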