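import Cfsg.Agent.Lib.DefectOne.Principal
import Cfsg.Agent.Lib.DefectOne.Count
import Cfsg.Agent.Lib.SmallSimple.Basic
import Cfsg.Agent.Lib.Char.SmallDegrees
import Cfsg.Agent.Lib.Block.Exist

/-!
# Simple groups of order less than the cube of a prime divisor
-/

set_option autoImplicit false
set_option linter.unusedSectionVars false
set_option linter.style.haveILetI false

namespace Cfsg.Agent.Lib.Brauer43

open Cfsg Cfsg.Agent.Lib Cfsg.Agent.Lib.Char Cfsg.Agent.Lib.DefectOne
open Cfsg.Agent.Lib.Char.UC (C N)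
open scoped ComplexConjugate Classical

universe u

variable {p : ℕ} [hp : Fact p.Prime] {G : Type u} [Group G] [Fintype G] {P : Sylow p G}

theorem sum_lam_P (hP : Nat.card (P : Subgroup G) = p) {ξ : Lam P} (hξ : ξ ≠ lamOne) :
    ∑ x : (P : Subgroup G), (ξ.1 (inC hP x) : ℂ) = 0 := by
  let f : (P : Subgroup G) →* ℂ :=
    (Units.coeHom ℂ).comp (ξ.1.comp (Subgroup.inclusion (UC.le_C (star_of_card hP))))
  have hf : f ≠ 1 := by
    intro h
    refine hξ (Subtype.ext (MonoidHom.ext fun c => ?_))
    obtain ⟨x, y, hxy, -, hx, hy⟩ := exists_parts c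
    have h1 : ξ.1 x = 1 := Units.ext (show ((ξ.1 x : ℂˣ) : ℂ) = 1 from
      DFunLike.congr_fun h (⟨(x : G), hx⟩ : ↥(P : Subgroup G)))
    rw [← hxy, map_mul, h1, one_mul]
    exact ξ.2 y hy
  exact sum_hom_units_eq_zero f hf

/-- The components summed over `P`. -/
theorem sum_S (hP : Nat.card (P : Subgroup G) = p) (θ : Th P) (χ : IrrCharacter G) :
    ∑ x : (P : Subgroup G), S hP θ χ x = (p : ℂ) * mult χ (phi lamOne θ) := by
  simp only [S]
  rw [Finset.sum_comm, Finset.sum_eq_single (lamOne : Lam P)]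
  · rw [← Finset.mul_sum, mul_comm]
    congr 1
    rw [Finset.sum_congr rfl (fun (x : ↥(P : Subgroup G)) _ =>
      (show (((lamOne : Lam P).1 (inC hP x) : ℂˣ) : ℂ) = 1 from rfl)), Finset.sum_const,
      Finset.card_univ, ← Nat.card_eq_fintype_card, hP, nsmul_eq_mul, mul_one]
  · intro ξ _ hξ
    rw [← Finset.mul_sum, sum_lam_P hP hξ, mul_zero]
  · exact fun h => absurd (Finset.mem_univ _) h

theorem S_one (hP : Nat.card (P : Subgroup G) = p) (θ : Th P) (χ : IrrCharacter G) :
    S hP θ χ 1 = ((R θ χ : ℤ) : ℂ) := by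
  simp only [S, R]
  push_cast
  refine Finset.sum_congr rfl fun ξ _ => ?_
  rw [show inC hP (1 : (P : Subgroup G)) = 1 from Subtype.ext rfl, map_one, Units.val_one, mul_one]

/-- Data for one exceptional character of the principal block. -/
theorem exists_exceptional (hP : Nat.card (P : Subgroup G) = p) :
    (C P).relIndex (N P) ∣ p - 1 ∧
    ∃ (ψ : IrrCharacter G) (s : ℤ), (s = 1 ∨ s = -1) ∧
      (p - 1) / (C P).relIndex (N P) * charDegree (ψ : G → ℂ) ^ 2 ≤ Nat.card G ∧
      (∃ w : ℕ, (charDegree (ψ : G → ℂ) : ℤ) - s * ((C P).relIndex (N P) : ℕ) = p * w) ∧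
      ∀ y : G, y ∈ C P → ¬ p ∣ orderOf y →
        ∑ x : (P : Subgroup G), (ψ : G → ℂ) ((x : G) * y) =
          (ψ : G → ℂ) y - (s : ℂ) * ((C P).relIndex (N P) : ℕ) := by
  obtain ⟨M, hM⟩ := Block.exists_isPModular (p := p) hp.out
  haveI := hM.2.1
  haveI := Block.resField_charP (M := M) hM
  have h1 : ∃ ψ ∈ principalBlock M G, ¬ p ∣ charDegree (ψ : G → ℂ) :=
    ⟨Block.oneIrr G, Block.oneIrr_mem, by
      rw [show charDegree (Block.oneIrr G : G → ℂ) = 1 from charDegree_one]
      exact hp.out.not_dvd_one⟩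
  obtain ⟨hdvd, Z, Y, sgn, ε, hB, hd, -, hY, -, -, -, hYr, -, -, hex⟩ :=
    exists_structure_full hM hP (oneTh P) Block.isPBlock_principalBlock (induced_principal hM hP) h1
      (by rw [Tgrp_oneTh]; exact relIndex_le_blockRank hM hP)
  rw [Tgrp_oneTh] at hdvd hY hex
  refine ⟨hdvd, ?_⟩
  set e := (C P).relIndex (N P) with he
  have he0 : 0 < e := Nat.pos_of_ne_zero Subgroup.index_ne_zero_of_finite
  have h2 := hp.out.two_le
  obtain ⟨ψ, hψ⟩ := Finset.card_pos.1 (hY ▸ Nat.div_pos (Nat.le_of_dvd (by omega) hdvd) he0)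
  obtain ⟨s, hs, hR⟩ := hex ψ hψ
  have hmem : ψ ∈ principalBlock M G := by rw [hB]; exact Or.inr hψ
  have hsum : ∀ y : G, y ∈ C P → ¬ p ∣ orderOf y →
      ∑ x : (P : Subgroup G), (ψ : G → ℂ) ((x : G) * y) = (ψ : G → ℂ) y - (s : ℂ) * (e : ℕ) := by
    intro y hy hyr
    have hS := sum_S hP (oneTh P) ψ
    rw [← Finset.add_sum_erase _ _ (Finset.mem_univ (1 : (P : Subgroup G))), S_one, hR] at hS
    rw [← Finset.add_sum_erase _ _ (Finset.mem_univ (1 : (P : Subgroup G))), OneMemClass.coe_one,
      one_mul, Finset.sum_congr rfl (g := fun x => S hP (oneTh P) ψ x) (fun x hx =>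
        apply_singular_principal hM hP hmem (Finset.ne_of_mem_erase hx) (y := ⟨y, hy⟩)
          (by rwa [Subgroup.orderOf_mk]))]
    push_cast at hS
    linear_combination hS
  refine ⟨ψ, s, hs, ?_, ?_, hsum⟩
  · rw [← sum_charDegree_sq (G := G), ← hY]
    refine le_trans (le_of_eq ?_) (Finset.sum_le_sum_of_subset (f := fun χ : IrrCharacter G =>
      charDegree (χ : G → ℂ) ^ 2) (Finset.subset_univ Y))
    rw [Finset.sum_congr rfl (g := fun _ => charDegree (ψ : G → ℂ) ^ 2), Finset.sum_const,
      smul_eq_mul]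
    intro χ hχ
    have h := hYr χ hχ ψ hψ 1 (by rw [orderOf_one]; exact hp.out.not_dvd_one)
    rw [apply_one_eq_charDegree (isCharacter_of_isIrr χ.2),
      apply_one_eq_charDegree (isCharacter_of_isIrr ψ.2)] at h
    rw [show charDegree (χ : G → ℂ) = charDegree (ψ : G → ℂ) by exact_mod_cast h]
  · have h := hsum 1 (one_mem _) (by rw [orderOf_one]; exact hp.out.not_dvd_one)
    simp only [mul_one, apply_one_eq_charDegree (isCharacter_of_isIrr ψ.2)] at h
    obtain ⟨w, hw⟩ := CharTools.exists_nat_sum_subgroup (isCharacter_of_isIrr ψ.2) (P : Subgroup G)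
    rw [Finset.sum_subtype (p := (· ∈ (P : Subgroup G))) _ (fun x => by simp) _, hP] at hw
    refine ⟨w, ?_⟩
    have h' : ((charDegree (ψ : G → ℂ) : ℂ)) - (s : ℂ) * (e : ℕ) = (p : ℂ) * w := by
      rw [← h, ← hw]
    exact_mod_cast h'

/-- An exceptional character with at most one `P`-fixed point forces a self-centralising `P`. -/
theorem eq_one_of_regular' (hP : Nat.card (P : Subgroup G) = p)
    {ψ : IrrCharacter G} (hfaith : ∀ g : G, (ψ : G → ℂ) g = (ψ : G → ℂ) 1 → g = 1)
    {s : ℤ} {e w : ℕ}
    (hs : s = 1 ∨ s = -1) (he : 0 < e) (hw : w ≤ 1) (hw' : w = 1 → s = -1)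
    (hdeg : (charDegree (ψ : G → ℂ) : ℤ) - s * e = p * w)
    (hsum : ∀ y : G, y ∈ C P → ¬ p ∣ orderOf y →
      ∑ x : (P : Subgroup G), (ψ : G → ℂ) ((x : G) * y) = (ψ : G → ℂ) y - (s : ℂ) * (e : ℕ))
    {y : G} (hy : y ∈ C P) (hyr : ¬ p ∣ orderOf y) : y = 1 := by
  have hc := isCharacter_of_isIrr ψ.2
  set D := charDegree (ψ : G → ℂ) with hD
  have hn : (ψ : G → ℂ) 1 = (D : ℂ) := apply_one_eq_charDegree hc
  refine hfaith y ?_
  let f : ↥(P : Subgroup G) × Subgroup.zpowers y →* G :=
    MonoidHom.noncommCoprod (P : Subgroup G).subtype (Subgroup.zpowers y).subtype fun x z => by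
      obtain ⟨i, hi⟩ := z.2
      have hc' : Commute (x : G) y := Subgroup.mem_centralizer_iff.1 hy x x.2
      exact (show Commute (x : G) (z : G) from hi ▸ hc'.zpow_right i)
  obtain ⟨m, hm⟩ := CharTools.exists_nat_sum_subgroup (isCharacter_comp hc f) ⊤
  rw [Finset.filter_true_of_mem fun x _ => Subgroup.mem_top x, Subgroup.card_top,
    Fintype.sum_prod_type, Finset.sum_comm] at hm
  obtain ⟨m', hm'⟩ := CharTools.exists_nat_sum_subgroup hc (Subgroup.zpowers y)
  rw [Finset.sum_subtype (p := (· ∈ Subgroup.zpowers y)) _ (fun x => by simp) _] at hm'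
  have hin : ∀ z : Subgroup.zpowers y, ∑ x : (P : Subgroup G), (ψ : G → ℂ) (f (x, z)) =
      (ψ : G → ℂ) z - (s : ℂ) * (e : ℕ) := by
    intro z
    have hz : (z : G) ∈ C P := Subgroup.zpowers_le.2 hy z.2
    have hzr : ¬ p ∣ orderOf (z : G) := fun h => hyr (h.trans (by
      obtain ⟨i, hi⟩ := Subgroup.mem_zpowers_iff.1 z.2
      rw [← hi]
      exact orderOf_dvd_of_pow_eq_one (by
        rw [← zpow_natCast, zpow_comm, zpow_natCast, pow_orderOf_eq_one, one_zpow])))
    rw [← hsum z hz hzr]
    exact Finset.sum_congr rfl fun x _ => by simp [f]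
  simp only [Function.comp_apply] at hm
  rw [Finset.sum_congr rfl fun z _ => hin z, Finset.sum_sub_distrib, hm', Finset.sum_const,
    Finset.card_univ, ← Nat.card_eq_fintype_card, Nat.card_prod, hP, nsmul_eq_mul] at hm
  set k := Nat.card (Subgroup.zpowers y) with hk
  have hk0 : 0 < k := Nat.card_pos
  -- the value sum is maximal
  have hD0 : 0 < D := charDegree_pos ψ.2
  have hmz : (k : ℤ) * m' - k * (s * e) = p * k * m := by exact_mod_cast hm
  have hbound : m' ≤ D := by
    have h : ‖∑ z : Subgroup.zpowers y, (ψ : G → ℂ) z‖ ≤ ∑ _z : Subgroup.zpowers y, (D : ℝ) :=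
      norm_sum_le_of_le _ fun z _ => by
        have h := norm_apply_le hc (z : G)
        rwa [hn, Complex.norm_natCast] at h
    rw [hm', Finset.sum_const, Finset.card_univ, ← Nat.card_eq_fintype_card, nsmul_eq_mul,
      norm_mul, Complex.norm_natCast, Complex.norm_natCast] at h
    have h' : k * m' ≤ k * D := by exact_mod_cast h
    exact Nat.le_of_mul_le_mul_left h' hk0
  have hm1 : (m' : ℤ) - s * e = p * m :=
    mul_left_cancel₀ (Int.natCast_ne_zero.2 hk0.ne') (by linear_combination hmz)
  have hmD : m' = D := by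
    have hb : (m' : ℤ) ≤ D := by exact_mod_cast hbound
    have hp2 : (2 : ℤ) ≤ p := by exact_mod_cast hp.out.two_le
    have hpm : (0 : ℤ) ≤ p * m := by positivity
    rcases Nat.lt_or_ge w 1 with h0 | h1
    · have : w = 0 := by omega
      subst this
      simp only [Nat.cast_zero, mul_zero] at hdeg
      have : (m' : ℤ) = D := by linarith
      exact_mod_cast this
    · have : w = 1 := by omega
      have hs' := hw' this
      subst this hs'
      have hm0 : (1 : ℤ) ≤ m := by
        by_contra hh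
        have : (m : ℤ) = 0 := by omega
        rw [this, mul_zero] at hm1
        have he' : (1 : ℤ) ≤ e := by exact_mod_cast he
        have hm0' : (0 : ℤ) ≤ m' := Int.natCast_nonneg _
        linarith
      have := mul_le_mul_of_nonneg_left hm0 (show (0 : ℤ) ≤ p by linarith)
      have : (m' : ℤ) = D := by push_cast at hdeg; linarith
      exact_mod_cast this
  rw [hmD] at hm'
  have hre := congrArg Complex.re hm'
  rw [Complex.re_sum, Complex.mul_re, Complex.natCast_re, Complex.natCast_re, Complex.natCast_im,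
    zero_mul, sub_zero] at hre
  have hle : ∀ z : Subgroup.zpowers y, ((ψ : G → ℂ) z).re ≤ (D : ℝ) := fun z => by
    have h := (Complex.re_le_norm _).trans (norm_apply_le hc (z : G))
    rwa [hn, Complex.norm_natCast] at h
  have h0 := (Finset.sum_eq_sum_iff_of_le (fun z _ => hle z)).1
    (by rw [hre, Finset.sum_const, Finset.card_univ, ← Nat.card_eq_fintype_card, nsmul_eq_mul])
    ⟨y, Subgroup.mem_zpowers y⟩ (Finset.mem_univ _)
  rw [hn]
  have hb := norm_apply_le hc y
  rw [hn, Complex.norm_natCast] at hb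
  have him : ((ψ : G → ℂ) y).im = 0 := by
    have h3 := Complex.sq_norm ((ψ : G → ℂ) y)
    rw [Complex.normSq_apply, show ((ψ : G → ℂ) y).re = (D : ℝ) from h0] at h3
    nlinarith [norm_nonneg ((ψ : G → ℂ) y)]
  exact Complex.ext (by rw [Complex.natCast_re]; exact h0) (by rw [him, Complex.natCast_im])

/-- The case of a simple group. -/
theorem eq_one_of_regular [IsSimpleGroup G] (hP : Nat.card (P : Subgroup G) = p)
    {ψ : IrrCharacter G} (hψ1 : (ψ : G → ℂ) ≠ fun _ => 1) {s : ℤ} {e w : ℕ}
    (hs : s = 1 ∨ s = -1) (he : 0 < e) (hw : w ≤ 1) (hw' : w = 1 → s = -1)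
    (hdeg : (charDegree (ψ : G → ℂ) : ℤ) - s * e = p * w)
    (hsum : ∀ y : G, y ∈ C P → ¬ p ∣ orderOf y →
      ∑ x : (P : Subgroup G), (ψ : G → ℂ) ((x : G) * y) = (ψ : G → ℂ) y - (s : ℂ) * (e : ℕ))
    {y : G} (hy : y ∈ C P) (hyr : ¬ p ∣ orderOf y) : y = 1 :=
  eq_one_of_regular' hP (fun _ hg => Char.SmallDegrees.faithful_of_simple ψ.2 hψ1 hg)
    hs he hw hw' hdeg hsum hy hyr

/-- The Sylow subgroup has prime order and is its own centraliser. -/
theorem self_centralizing [IsSimpleGroup G] (hG : ¬ IsMulCommutative G) (hdvd : p ∣ Nat.card G)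
    (hbig : Nat.card G < p ^ 3) (P : Sylow p G) :
    Nat.card (P : Subgroup G) = p ∧ C P = (P : Subgroup G) ∧
      ∃ n, Nat.card (Sylow p G) = 1 + n * p ∧ 2 * n ≤ p + 2 := by
  have h2 := hp.out.two_le
  obtain ⟨hA1, hA2, -⟩ := SmallSimple.card_sylow_facts (p := p) hG hdvd
  have hidx : Nat.card (Sylow p G) = (N P).index := SmallSimple.card_sylow_eq_index P
  set n := Nat.card (Sylow p G) / p with hndef
  have hA : Nat.card (Sylow p G) = 1 + n * p := by
    conv_lhs => rw [← Nat.mod_add_div (Nat.card (Sylow p G)) p, hA2, mul_comm p]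
  have hn1 : 1 ≤ n := by
    rcases Nat.eq_zero_or_pos n with h | h
    · rw [h] at hA; omega
    · exact h
  have hcardN : Nat.card (N P) * (1 + n * p) = Nat.card G := by
    rw [← hA, hidx, Subgroup.card_mul_index]
  have hAp : p + 1 ≤ 1 + n * p := by have := Nat.mul_le_mul_right p hn1; omega
  have hP : Nat.card (P : Subgroup G) = p := by
    obtain ⟨j, hj⟩ := IsPGroup.iff_card.1 P.2
    have hne : j ≠ 0 := by
      rintro rfl
      exact P.ne_bot_of_dvd_card hdvd (Subgroup.card_eq_one.1 (by simpa using hj))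
    by_contra hne1
    have hj1 : j ≠ 1 := fun h => hne1 (by rw [hj, h, pow_one])
    have hle : p ^ 2 ≤ Nat.card (N P) := le_trans (Nat.pow_le_pow_right hp.out.pos (by omega))
      (hj.symm.le.trans (Subgroup.card_le_of_le
        (Subgroup.le_normalizer (H := (P : Subgroup G)))))
    have h3 : p ^ 2 * (p + 1) ≤ Nat.card (N P) * (1 + n * p) := Nat.mul_le_mul hle hAp
    have : p ^ 3 ≤ p ^ 2 * (p + 1) := by rw [mul_add, pow_succ p 2]; omega
    omega
  have hPC : (P : Subgroup G) ≤ C P := UC.le_C (star_of_card hP)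
  obtain ⟨hediv, ψ, s, hs, hsq, ⟨w, hw⟩, hsum⟩ := exists_exceptional (P := P) hP
  set e := (C P).relIndex (N P) with he
  have he2 : 2 ≤ e := by
    have h0 : e ≠ 0 := Subgroup.index_ne_zero_of_finite
    have h1 : e ≠ 1 := fun h =>
      SmallSimple.not_normalizer_le_centralizer hG P hdvd (Subgroup.relIndex_eq_one.1 h)
    omega
  have hep := Nat.le_of_dvd (by omega) hediv
  obtain ⟨v, hv⟩ : p ∣ Nat.card (C P) := by
    have := Subgroup.card_dvd_of_le hPC
    rwa [hP] at this
  have hcN : Nat.card (N P) = p * v * e := by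
    have h := ((C P).subgroupOf (N P)).card_mul_index
    rw [Nat.card_congr (Subgroup.subgroupOfEquivOfLe (UC.C_le_N P)).toEquiv, hv] at h
    exact h.symm
  have hv0 : 0 < v := Nat.pos_of_ne_zero fun h => by
    rw [h, mul_zero] at hv; exact Nat.card_pos.ne' hv
  have hvea : v * e * (1 + n * p) < p * p := by
    rw [← hcardN, hcN, pow_succ', sq, mul_assoc p, mul_assoc p] at hbig
    exact Nat.lt_of_mul_lt_mul_left hbig
  have hven : v * e * n < p := by
    refine Nat.lt_of_mul_lt_mul_right (a := p) ?_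
    refine lt_of_le_of_lt ?_ hvea
    rw [mul_assoc (v * e)]
    exact Nat.mul_le_mul_left _ (Nat.le_add_left _ _)
  refine ⟨hP, ?_, n, hA, ?_⟩
  swap
  · have := Nat.mul_le_mul (Nat.mul_le_mul (show 1 ≤ v from hv0) he2) (le_refl n)
    rw [one_mul] at this
    omega
  set D := charDegree (ψ : G → ℂ) with hD
  have hD0 : 0 < D := charDegree_pos ψ.2
  suffices hv1 : v = 1 by
    exact (Subgroup.eq_of_le_of_card_ge hPC (by rw [hv, hv1, mul_one, hP])).symm
  by_contra hvne
  have hv2 : 2 ≤ v := by omega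
  have h2v : 2 * v < p := by
    have := Nat.mul_le_mul (Nat.mul_le_mul_left v he2) hn1
    rw [mul_one, mul_comm v 2] at this
    omega
  have hψ1 : (ψ : G → ℂ) ≠ fun _ => 1 := by
    intro h
    have hD1 : D = 1 := by rw [hD, h]; exact charDegree_one
    rw [hD1] at hw
    rcases hs with rfl | rfl
    · have : (0 : ℤ) ≤ p * w := by positivity
      push_cast at hw
      omega
    · push_cast at hw
      have hw1 : 1 ≤ w := by
        rcases Nat.eq_zero_or_pos w with h0 | h0
        · rw [h0, Nat.cast_zero, mul_zero] at hw; omega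
        · exact h0
      have hpw : (p : ℤ) * 1 ≤ p * w :=
        mul_le_mul_of_nonneg_left (by exact_mod_cast hw1) (Int.natCast_nonneg p)
      have he1 : e + 1 = p := by omega
      have := Nat.mul_le_mul (Nat.mul_le_mul hv2 (le_refl e)) hn1
      omega
  rcases Nat.lt_or_ge p D with hDp | hDp
  · -- a large exceptional degree
    have hco : Nat.Coprime D p := by
      refine ((hp.out.coprime_iff_not_dvd).2 fun hd => ?_).symm
      have h1 : (p : ℤ) ∣ s * e := by
        have h' : (p : ℤ) ∣ (D : ℤ) - ((D : ℤ) - s * e) :=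
          dvd_sub (Int.natCast_dvd_natCast.2 hd) (hw ▸ dvd_mul_right _ _)
        simpa using h'
      have h3 : (p : ℤ) ∣ e := by rcases hs with rfl | rfl <;> simpa using h1
      have := Nat.le_of_dvd (by omega) (Int.natCast_dvd_natCast.1 h3)
      omega
    have hDdvd : D ∣ v * e * (1 + n * p) := by
      refine hco.dvd_of_dvd_mul_left ?_
      have h := charDegree_dvd_card ψ.2
      rw [← hcardN, hcN] at h
      rwa [← mul_assoc, ← mul_assoc]
    obtain ⟨g, hg⟩ := hDdvd
    have hgp : g < p := by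
      by_contra hge
      have := Nat.mul_le_mul hDp.le (not_lt.1 hge)
      omega
    have hg0 : 0 < g := Nat.pos_of_ne_zero fun h0 => by
      rw [h0, mul_zero] at hg
      have := Nat.mul_pos (Nat.mul_pos hv0 (show 0 < e by omega)) (show 0 < 1 + n * p by omega)
      omega
    have hgz : (D : ℤ) * g = v * e * (1 + n * p) := by exact_mod_cast hg.symm
    have hdiv : (p : ℤ) ∣ (g : ℤ) * s - v := by
      have h1 : (p : ℤ) ∣ (e : ℤ) * ((g : ℤ) * s - v) :=
        ⟨(v : ℤ) * e * n - g * w, by linear_combination hgz - (g : ℤ) * hw⟩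
      refine ((Nat.prime_iff_prime_int.1 hp.out).dvd_or_dvd h1).resolve_left fun h => ?_
      have := Nat.le_of_dvd (by omega) (Int.natCast_dvd_natCast.1 h)
      omega
    rcases hs with rfl | rfl
    · rw [mul_one] at hdiv
      have hgv : g = v := by
        rcases lt_trichotomy g v with h | h | h
        · have := Int.le_of_dvd (by omega) ((dvd_neg (α := ℤ)).2 hdiv); omega
        · exact h
        · have := Int.le_of_dvd (by omega) hdiv; omega
      subst hgv
      have hDe : D = e * (1 + n * p) := by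
        refine Nat.eq_of_mul_eq_mul_left hv0 ?_
        rw [← mul_assoc, hg, mul_comm]
      rw [← hcardN, hcN, hDe] at hsq
      have htm : (p - 1) / e * e = p - 1 := Nat.div_mul_cancel hediv
      have h5 : (p - 1) * (1 + n * p) ≤ p * g := by
        refine le_of_mul_le_mul_left ?_
          (show 0 < e * (1 + n * p) from Nat.mul_pos (by omega) (by omega))
        calc e * (1 + n * p) * ((p - 1) * (1 + n * p))
            = e * (1 + n * p) * ((p - 1) / e * e * (1 + n * p)) := by rw [htm]
          _ = (p - 1) / e * (e * (1 + n * p)) ^ 2 := by ring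
          _ ≤ p * g * e * (1 + n * p) := hsq
          _ = e * (1 + n * p) * (p * g) := by ring
      obtain ⟨q, hq⟩ : ∃ q, p = q + 1 := ⟨p - 1, by omega⟩
      have h6 : (p - 1) * (p + 1) ≤ p * g := le_trans (Nat.mul_le_mul_left _ hAp) h5
      rw [show p - 1 = q by omega] at h6
      have h7 : 2 * (p * g) ≤ p * q := by
        calc 2 * (p * g) = p * (2 * g) := by ring
          _ ≤ p * q := Nat.mul_le_mul_left p (by omega)
      nlinarith
    · have hgv : g + v = p := by
        have hd : (p : ℤ) ∣ ((g + v : ℕ) : ℤ) := by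
          have := (dvd_neg (α := ℤ)).2 hdiv
          push_cast
          rwa [show -((g : ℤ) * -1 - v) = g + v by ring] at this
        obtain ⟨c, hc⟩ := Int.natCast_dvd_natCast.1 hd
        rcases c with _ | _ | c
        · omega
        · omega
        · exfalso
          have : p * 2 ≤ p * (c + 1 + 1) := Nat.mul_le_mul_left p (by omega)
          omega
      have hpz : (g : ℤ) = p - v := by omega
      have hwe : (w : ℤ) * (p - v) = e * (1 + v * n) := by
        refine mul_left_cancel₀ (Int.natCast_ne_zero.2 hp.out.ne_zero) ?_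
        rw [hpz] at hgz
        linear_combination hgz - ((p : ℤ) - v) * hw
      have hw2 : (2 : ℤ) ≤ w := by
        by_contra hh
        have h1 : (p : ℤ) * w ≤ p * 1 :=
          mul_le_mul_of_nonneg_left (by omega) (Int.natCast_nonneg p)
        omega
      have hvz : (2 : ℤ) ≤ v := by exact_mod_cast hv2
      have hez : (2 : ℤ) ≤ e := by exact_mod_cast he2
      have hvenz : (v : ℤ) * e * n + 1 ≤ p := by exact_mod_cast hven
      have hpv : 2 * ((p : ℤ) - v) ≤ w * (p - v) :=
        mul_le_mul_of_nonneg_right hw2 (by omega)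
      have hne : (v : ℤ) * e ≤ v * e * n := by
        have : (1 : ℤ) ≤ n := by exact_mod_cast hn1
        nlinarith
      have hve : ((v : ℤ) - 1) * ((e : ℤ) - 2) ≤ 0 := by nlinarith
      have he' : e = 2 := by
        by_contra h
        have : (3 : ℤ) ≤ e := by omega
        nlinarith
      clear_value e
      clear he
      subst he'
      have hn : n = 1 := by
        by_contra h
        have : (2 : ℤ) ≤ n := by omega
        have : (v : ℤ) * 2 ≤ v * n := mul_le_mul_of_nonneg_left this (by omega)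
        push_cast at hwe hvenz hpv
        linarith
      clear_value n
      clear hndef
      subst hn
      push_cast at hwe hvenz hpv
      have hp21 : p = 2 * v + 1 := by omega
      have hw' : w = 2 := by
        rw [hp21] at hwe
        push_cast at hwe
        have : ((w : ℤ) - 2) * (v + 1) = 0 := by linear_combination hwe
        rcases mul_eq_zero.1 this with h | h <;> omega
      have hD4 : D = 4 * v := by
        rw [hw', hp21] at hw
        push_cast at hw
        omega
      have ht : (p - 1) / 2 = v := by omega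
      rw [ht, ← hcardN, hcN, hD4, hp21] at hsq
      have h9 : v * (16 * v * v) ≤ v * (4 * (2 * v + 1) * (v + 1)) := by
        calc v * (16 * v * v) = v * (4 * v) ^ 2 := by ring
          _ ≤ (2 * v + 1) * v * 2 * (1 + 1 * (2 * v + 1)) := hsq
          _ = v * (4 * (2 * v + 1) * (v + 1)) := by ring
      have h10 := Nat.le_of_mul_le_mul_left h9 hv0
      nlinarith
  · -- a small exceptional degree
    have hw1 : w ≤ 1 ∧ (w = 1 → s = -1) := by
      have hD' : (D : ℤ) ≤ p := by exact_mod_cast hDp
      have he' : (2 : ℤ) ≤ e := by exact_mod_cast he2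
      have hep' : (e : ℤ) + 1 ≤ p := by omega
      constructor
      · by_contra hh
        have : (p : ℤ) * 2 ≤ p * w := mul_le_mul_of_nonneg_left (by omega) (Int.natCast_nonneg p)
        rcases hs with rfl | rfl <;> omega
      · intro h1
        rw [h1, Nat.cast_one, mul_one] at hw
        rcases hs with rfl | rfl
        · omega
        · rfl
    have hle : C P ≤ (P : Subgroup G) := fun c hc => by
      obtain ⟨x, y, hxy, -, hx, hy⟩ := exists_parts (⟨c, hc⟩ : C P)
      rw [show c = (x : G) * (y : G) from (congrArg Subtype.val hxy).symm,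
        eq_one_of_regular hP hψ1 hs (by omega) hw1.1 hw1.2 hw hsum y.2
          (by rwa [Subgroup.orderOf_coe]), mul_one]
      exact hx
    have := Subgroup.card_le_of_le hle
    rw [hv, hP] at this
    have := Nat.mul_le_mul_left p hv2
    omega

end Cfsg.Agent.Lib.Brauer43
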