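import Cfsg.Agent.Lib.Brauer43.Perfect
import Cfsg.Agent.Lib.Brauer43.Main
import Cfsg.Agent.Lib.Brauer43.Reduce
import Cfsg.Agent.Lib.Classical.Order
import Cfsg.Agent.Lib.SmallSimple.Basic

/-!
# Perfect groups of order less than the cube of a prime divisor
-/

set_option autoImplicit false
set_option linter.unusedSectionVars false
set_option linter.style.haveILetI false

namespace Cfsg.Agent.Lib.Brauer43.Perfect

open Cfsg Cfsg.Agent.Lib

variable {p : ℕ} [hp : Fact p.Prime]

/-- The conclusion of Brauer's theorem. -/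
def IsPSLShape (p : ℕ) (G : Type*) [Group G] : Prop :=
  (∃ (F : Type) (_ : Field F) (_ : Fintype F), Fintype.card F = p ∧ 3 < p ∧
      Nonempty (G ≃* Matrix.ProjectiveSpecialLinearGroup (Fin 2) F)) ∨
    (∃ (m : ℕ) (F : Type) (_ : Field F) (_ : Fintype F), Fintype.card F = 2 ^ m ∧ p = 2 ^ m + 1 ∧
      3 < p ∧ Nonempty (G ≃* Matrix.ProjectiveSpecialLinearGroup (Fin 2) F))

theorem IsPSLShape.congr {G H : Type*} [Group G] [Group H] (e : G ≃* H) (h : IsPSLShape p G) :
    IsPSLShape p H := by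
  rcases h with ⟨F, i1, i2, h1, h2, ⟨f⟩⟩ | ⟨m, F, i1, i2, h1, h2, h3, ⟨f⟩⟩
  · exact Or.inl ⟨F, i1, i2, h1, h2, ⟨e.symm.trans f⟩⟩
  · exact Or.inr ⟨m, F, i1, i2, h1, h2, h3, ⟨e.symm.trans f⟩⟩

theorem IsPSLShape.card_lt {G : Type*} [Group G] [Finite G] (h : IsPSLShape p G) :
    3 < p ∧ p ^ 3 < 3 * Nat.card G := by
  rcases h with ⟨F, i1, i2, h1, h2, ⟨f⟩⟩ | ⟨m, F, i1, i2, h1, h2, h3, ⟨f⟩⟩
  · refine ⟨h2, ?_⟩
    have hodd : Odd (Fintype.card F) := by rw [h1]; exact hp.out.odd_of_ne_two (by omega)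
    have hc := Classical.two_mul_card_PSL_two_of_odd (F := F) hodd
    rw [← Nat.card_congr f.toEquiv, h1] at hc
    obtain ⟨c, hc1⟩ : ∃ c, c + 1 = p ^ 2 := ⟨p ^ 2 - 1, Nat.succ_pred_eq_of_pos (pow_pos hp.out.pos 2)⟩
    rw [show p ^ 2 - 1 = c by omega] at hc
    have h16 : 4 ^ 2 ≤ p ^ 2 := Nat.pow_le_pow_left h2 2
    have : p ^ 3 = p * (c + 1) := by rw [hc1]; ring
    nlinarith
  · refine ⟨h3, ?_⟩
    have hm : m ≠ 0 := by rintro rfl; simp at h2; omega
    have heven : Even (Fintype.card F) := by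
      rw [h1]; exact (Nat.even_pow' hm).2 even_two
    have hc := Classical.card_PSL_two_of_even (F := F) heven
    rw [← Nat.card_congr f.toEquiv, h1] at hc
    obtain ⟨c, hc1⟩ : ∃ c, c + 1 = (2 ^ m) ^ 2 :=
      ⟨(2 ^ m) ^ 2 - 1, Nat.succ_pred_eq_of_pos (pow_pos (pow_pos two_pos m) 2)⟩
    rw [show (2 ^ m) ^ 2 - 1 = c by omega] at hc
    have hq : 4 ≤ 2 ^ m := by
      have := hp.out.eq_two_or_odd
      rcases Nat.lt_or_ge m 2 with hlt | hge
      · interval_cases m
        · omega
        · simp at h2; omega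
      · exact le_trans (by norm_num) (Nat.pow_le_pow_right two_pos hge)
    subst h2
    rw [hc]
    set q := 2 ^ m
    nlinarith [Nat.mul_le_mul_right (q * q) hq, Nat.mul_le_mul_right q hq]

/-- The simple case. -/
theorem shape_of_simple {G : Type*} [Group G] [Finite G] [IsSimpleGroup G]
    (hG : ¬ IsMulCommutative G) (hdvd : p ∣ Nat.card G) (hbig : Nat.card G < p ^ 3) :
    IsPSLShape p G := by
  classical
  haveI := Fintype.ofFinite G
  obtain ⟨P⟩ : Nonempty (Sylow p G) := inferInstance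
  obtain ⟨hPc, hself, n, hcard, hsmall⟩ := self_centralizing hG hdvd hbig P
  exact iso_psl (P := P) (n := n)
    ⟨SmallSimple.commutator_eq_top hG, hPc, hself, hcard, Cfsg.Agent.Lib.Brauer43.noF_of_small hsmall⟩

theorem shape_of_core_trivial {G : Type*} [Group G] [Finite G] (hperf : commutator G = ⊤)
    (hdvd : p ∣ Nat.card G) (hsq : ¬ p ^ 2 ∣ Nat.card G) (hbig : Nat.card G < p ^ 3)
    (hcore : pPrimeCore p G = ⊥) : IsPSLShape p G := by
  obtain ⟨N, hN, hdN, hsimp, hcomm, -⟩ := exists_simple_normal hperf hdvd hsq hcore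
  haveI := hN
  haveI := hsimp
  have hle : Nat.card N ≤ Nat.card G := Subgroup.card_le_card_group N
  have h := shape_of_simple hcomm hdN (lt_of_le_of_lt hle hbig)
  suffices hT : N = ⊤ from h.congr ((MulEquiv.subgroupCongr hT).trans Subgroup.topEquiv)
  obtain ⟨-, hlt⟩ := h.card_lt
  by_contra hne
  have hi1 : N.index ≠ 1 := fun h => hne (Subgroup.index_eq_one.1 h)
  have hi0 : N.index ≠ 0 := Subgroup.index_ne_zero_of_finite
  have hmul := N.card_mul_index
  have hi3 : 3 ≤ N.index := by
    by_contra hh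
    have h2 : Nat.card (G ⧸ N) = 2 := by
      rw [← Subgroup.index_eq_card]; omega
    haveI : IsCyclic (G ⧸ N) := isCyclic_of_prime_card (p := 2) h2
    letI : CommGroup (G ⧸ N) := IsCyclic.commGroup
    refine hne ((Subgroup.eq_top_iff' N).2 fun g => (QuotientGroup.eq_one_iff g).1 ?_)
    exact hom_trivial hperf (QuotientGroup.mk' N) (fun a b => mul_comm a b) g
  have := Nat.mul_le_mul_left (Nat.card N) hi3
  omega

/-- Perfect groups `G` of order less than `p ^ 3` without normal subgroups of order two. -/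
theorem shape_of_perfect {G : Type*} [Group G] [Finite G] (hperf : commutator G = ⊤)
    (hdvd : p ∣ Nat.card G) (hbig : Nat.card G < p ^ 3) (P : Sylow p G)
    (hP : ¬ (P : Subgroup G).Normal) (h2 : ∀ N : Subgroup G, N.Normal → Nat.card N ≠ 2) :
    IsPSLShape p G := by
  have hPc := card_eq_prime hdvd hbig hP
  have hsq : ¬ p ^ 2 ∣ Nat.card G := by
    intro h
    rw [← (P : Subgroup G).card_mul_index, hPc, pow_two] at h
    exact P.not_dvd_index (Nat.dvd_of_mul_dvd_mul_left hp.out.pos h)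
  set R := pPrimeCore p G with hR
  haveI : R.Normal := pPrimeCore_normal p G
  have hcR := Components.pPrimeCore_coprime (G := G) p
  have hmul : Nat.card (G ⧸ R) * Nat.card R = Nat.card G :=
    (Subgroup.card_eq_card_quotient_mul_card_subgroup R).symm
  have hdQ : p ∣ Nat.card (G ⧸ R) := by
    rw [← hmul] at hdvd
    rcases hp.out.dvd_mul.1 hdvd with h | h
    · exact h
    · exact absurd h (hp.out.coprime_iff_not_dvd.1 hcR.symm)
  have hQle : Nat.card (G ⧸ R) ≤ Nat.card G :=
    hmul ▸ Nat.le_mul_of_pos_right _ Nat.card_pos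
  have hcoreQ : pPrimeCore p (G ⧸ R) = ⊥ := by
    rw [← le_bot_iff]
    intro y hy
    obtain ⟨g, rfl⟩ := QuotientGroup.mk'_surjective R y
    haveI := pPrimeCore_normal p (G ⧸ R)
    set K := (pPrimeCore p (G ⧸ R)).comap (QuotientGroup.mk' R) with hK
    have hcard : Nat.card K ∣ Nat.card (pPrimeCore p (G ⧸ R)) * Nat.card R := by
      have h1 := ((QuotientGroup.mk' R).subgroupMap K).ker.card_mul_index
      rw [Subgroup.index_ker, MonoidHom.range_eq_top.2
        (MonoidHom.subgroupMap_surjective _ _), Subgroup.card_top] at h1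
      rw [← h1, mul_comm]
      refine mul_dvd_mul ?_ ?_
      · exact Subgroup.card_dvd_of_le (Subgroup.map_comap_le _ _)
      · refine Subgroup.card_dvd_of_injective
          (f := ((K.subtype).comp ((QuotientGroup.mk' R).subgroupMap K).ker.subtype).codRestrict R
            fun x => ?_) ?_
        · have := congrArg Subtype.val x.2
          exact (QuotientGroup.eq_one_iff _).1 this
        · intro a b hab
          exact Subtype.ext (Subtype.ext (congrArg (fun z : R => (z : G)) hab))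
    have hle : K ≤ R := Components.le_pPrimeCore (N := K)
      (Nat.Coprime.coprime_dvd_left hcard
        ((Components.pPrimeCore_coprime (G := G ⧸ R) p).mul_left hcR))
    rw [Subgroup.mem_bot]
    exact (QuotientGroup.eq_one_iff g).2 (hle hy)
  have h := shape_of_core_trivial (perfect_quot hperf R) hdQ
    (fun hh => hsq (hh.trans ⟨Nat.card R, hmul.symm⟩)) (lt_of_le_of_lt hQle hbig) hcoreQ
  obtain ⟨-, hlt⟩ := h.card_lt
  have hR3 : Nat.card R < 3 := by
    by_contra hh
    have := Nat.mul_le_mul_left (Nat.card (G ⧸ R)) (not_lt.1 hh)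
    omega
  have hR1 : R = ⊥ := by
    have := h2 R inferInstance
    have := Nat.card_pos (α := R)
    exact Subgroup.card_eq_one.1 (by omega)
  exact h.congr ((QuotientGroup.quotientMulEquivOfEq hR1).trans QuotientGroup.quotientBot)

end Cfsg.Agent.Lib.Brauer43.Perfect
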