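import Cfsg.Agent.Lib.Brauer43.NoFSelf
import Cfsg.Agent.Lib.Brauer43.PerfectMain
import Cfsg.Agent.Lib.OddLocal.PLengthOne

/-!
# Brauer's dichotomy for perfect groups with a Sylow subgroup of prime order
-/

set_option autoImplicit false
set_option linter.unusedSectionVars false
set_option linter.style.haveILetI false

namespace Cfsg.Agent.Lib.Brauer43

open Cfsg Cfsg.Agent.Lib
open Cfsg.Agent.Lib.Char.UC (C N)

variable {p : ℕ} [hp : Fact p.Prime]

/-- The case of a trivial `p'`-core. -/
theorem shape_of_noF_core {G : Type*} [Group G] [Finite G] (hperf : commutator G = ⊤)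
    (P : Sylow p G) (hP : Nat.card (P : Subgroup G) = p) (hcore : Cfsg.pPrimeCore p G = ⊥) {n : ℕ}
    (hn : Nat.card (Sylow p G) = 1 + n * p) (hF : NoF p n) : Perfect.IsPSLShape p G := by
  classical
  haveI := Fintype.ofFinite G
  have hsub : ∀ L : Subgroup G, L.Normal → L ≠ ⊥ → (P : Subgroup G) ≤ L := by
    intro L hL hne
    haveI := hL
    have hd : p ∣ Nat.card L := by
      by_contra h
      exact hne (le_bot_iff.1 (hcore ▸ Components.le_pPrimeCore (N := L)
        (hp.out.coprime_iff_not_dvd.2 h).symm))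
    have hidx : ¬ p ∣ L.index := by
      intro h
      have h2 : p * p ∣ Nat.card G := L.card_mul_index ▸ mul_dvd_mul hd h
      rw [← (P : Subgroup G).card_mul_index, hP] at h2
      exact P.not_dvd_index (Nat.dvd_of_mul_dvd_mul_left hp.out.pos h2)
    intro y hy
    have hy' : ((y : G ⧸ L)) ^ p = 1 := by
      have h1 : (⟨y, hy⟩ : (P : Subgroup G)) ^ Nat.card (P : Subgroup G) = 1 := pow_card_eq_one'
      rw [hP] at h1
      rw [← QuotientGroup.mk_pow, show y ^ p = 1 by simpa using congrArg Subtype.val h1]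
      rfl
    rcases hp.out.eq_one_or_self_of_dvd _ (orderOf_dvd_of_pow_eq_one hy') with h | h
    · exact (QuotientGroup.eq_one_iff y).1 (orderOf_eq_one_iff.1 h)
    · exact absurd (h ▸ orderOf_dvd_natCard (y : G ⧸ L)) hidx
  exact iso_psl (P := P) (n := n) ⟨hperf, hP, self_of_noF hperf hsub hP hn hF, hn, hF⟩

/-- Brauer's dichotomy. -/
theorem perfect_dichotomy {G : Type*} [Group G] [Finite G] (hperf : commutator G = ⊤)
    (P : Sylow p G) (hP : Nat.card (P : Subgroup G) = p) {n : ℕ}
    (hn : Nat.card (Sylow p G) = 1 + n * p) (hF : NoF p n) :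
    Perfect.IsPSLShape p (G ⧸ Cfsg.pPrimeCore p G) := by
  classical
  set R := Cfsg.pPrimeCore p G with hR
  haveI : R.Normal := pPrimeCore_normal p G
  have hcR := Components.pPrimeCore_coprime (G := G) p
  set π := QuotientGroup.mk' R with hπ
  set Q := P.mapSurjective (f := π) (QuotientGroup.mk'_surjective R) with hQ
  have hQmap : (Q : Subgroup (G ⧸ R)) = (P : Subgroup G).map π := rfl
  have hQc : Nat.card (Q : Subgroup (G ⧸ R)) = p := by
    rw [hQmap]
    have hinj : Function.Injective ((π.comp (P : Subgroup G).subtype)) := by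
      rw [injective_iff_map_eq_one]
      intro x hx
      have hxR : (x : G) ∈ R := (QuotientGroup.eq_one_iff _).1 hx
      have hbot := Components.inf_eq_bot_of_pGroup_coprime P.2 hcR
      exact Subtype.ext (Subgroup.mem_bot.1 (hbot ▸ Subgroup.mem_inf.2 ⟨x.2, hxR⟩ :
        (x : G) ∈ (⊥ : Subgroup G)))
    have := Nat.card_range_of_injective hinj
    rw [hP] at this
    refine Eq.trans ?_ this
    rw [← MonoidHom.coe_range, MonoidHom.range_comp, Subgroup.range_subtype]
    rfl
  have hmodQ : Nat.card (Sylow p (G ⧸ R)) % p = 1 := by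
    have h : Nat.card (Sylow p (G ⧸ R)) % p = 1 % p := card_sylow_modEq_one p (G ⧸ R)
    rwa [Nat.mod_eq_of_lt hp.out.one_lt] at h
  have hperfQ := Perfect.perfect_quot hperf R
  set k := Nat.card (Sylow p (G ⧸ R)) / p with hk
  have hQn : Nat.card (Sylow p (G ⧸ R)) = 1 + k * p := by
    conv_lhs => rw [← Nat.mod_add_div (Nat.card (Sylow p (G ⧸ R))) p, hmodQ, mul_comm p]
  have hk1 : 1 ≤ k := by
    by_contra hh
    have hk0 : k = 0 := Nat.eq_zero_of_not_pos hh
    rw [hk0, zero_mul, add_zero] at hQn
    haveI : Subsingleton (Sylow p (G ⧸ R)) := (Nat.card_eq_one_iff_unique.1 hQn).1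
    exact Perfect.not_normal hperfQ Q hQc (Sylow.normal_of_subsingleton Q)
  -- compare the numbers of Sylow subgroups
  set M := (Subgroup.normalizer ((Q : Subgroup (G ⧸ R)) : Set (G ⧸ R))).comap π with hM
  have hle : Subgroup.normalizer ((P : Subgroup G) : Set G) ≤ M := by
    intro g hg
    rw [hM, Subgroup.mem_comap, hQmap]
    exact Subgroup.le_normalizer_map π ⟨g, hg, rfl⟩
  have hMi : M.index = 1 + k * p := by
    rw [hM, Subgroup.index_comap_of_surjective _ (QuotientGroup.mk'_surjective R)]
    exact Q.card_eq_index_normalizer.symm.trans hQn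
  have hprod : (Subgroup.normalizer ((P : Subgroup G) : Set G)).relIndex M * (1 + k * p) =
      1 + n * p := by
    rw [← hMi, Subgroup.relIndex_mul_index hle]
    exact P.card_eq_index_normalizer.symm.trans hn
  set m := (Subgroup.normalizer ((P : Subgroup G) : Set G)).relIndex M with hm
  obtain ⟨j, hj⟩ : ∃ j, m = 1 + j * p := by
    refine ⟨m / p, ?_⟩
    have h1 : m % p = 1 := by
      have h2 := congrArg (· % p) hprod
      simp only [Nat.mul_mod, Nat.add_mul_mod_self_right, Nat.mod_eq_of_lt hp.out.one_lt,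
        mul_one, Nat.mod_mod] at h2
      exact h2
    rw [← h1, mul_comm]
    exact (Nat.mod_add_div m p).symm
  have hnk : n = k + j + k * j * p := by
    rw [hj] at hprod
    refine Nat.eq_of_mul_eq_mul_right hp.out.pos ?_
    have : (1 + j * p) * (1 + k * p) = 1 + (k + j + k * j * p) * p := by ring
    omega
  rcases Nat.eq_zero_or_pos j with hj0 | hj0
  · subst hj0
    have : n = k := by rw [hnk]; simp
    subst this
    refine shape_of_noF_core hperfQ Q hQc ?_ hQn hF
    exact OddLocal.pPrimeCore_quotient_eq_bot p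
  · exfalso
    refine hF j (k * (j + 1)) hj0 (Nat.mul_pos hk1 (by omega)) ?_
    rw [hnk]; ring

end Cfsg.Agent.Lib.Brauer43
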