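import Cfsg.Prelude.Def_Solvable
import Cfsg.Agent.Lib.Components.Cores
import Mathlib

/-!
# Perfect groups with a Sylow subgroup of prime order
-/

set_option autoImplicit false
set_option linter.unusedSectionVars false
set_option linter.style.haveILetI false

namespace Cfsg.Agent.Lib.Brauer43.Perfect

open Cfsg Cfsg.Agent.Lib

variable {p : ℕ} [hp : Fact p.Prime] {G : Type*} [Group G] [Finite G]

theorem hom_trivial (hperf : commutator G = ⊤) {A : Type*} [Group A] (f : G →* A)
    (hA : ∀ a b : A, a * b = b * a) (g : G) : f g = 1 := by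
  letI : CommGroup A := { (inferInstance : Group A) with mul_comm := hA }
  have h : commutator G ≤ f.ker := Abelianization.commutator_subset_ker f
  rw [hperf] at h
  exact h (Subgroup.mem_top g)

/-- A Sylow subgroup of prime order of a perfect group is not central in its normaliser. -/
theorem not_normalizer_le (hperf : commutator G = ⊤) (P : Sylow p G)
    (hP : Nat.card (P : Subgroup G) = p) :
    ¬ Subgroup.normalizer ((P : Subgroup G) : Set G) ≤
      Subgroup.centralizer ((P : Subgroup G) : Set G) := by
  intro hc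
  haveI : IsCyclic (P : Subgroup G) := isCyclic_of_prime_card hP
  have hK := MonoidHom.ker_transferSylow_isComplement' P hc
  letI : CommGroup (P : Subgroup G) := IsCyclic.commGroup
  have ht : (MonoidHom.transferSylow P hc).ker = ⊤ :=
    top_le_iff.1 fun g _ => hom_trivial hperf (MonoidHom.transferSylow P hc)
      (fun a b => mul_comm a b) g
  rw [ht, Subgroup.isComplement'_top_left] at hK
  rw [hK, Subgroup.card_bot] at hP
  exact hp.out.ne_one hP.symm

/-- A Sylow subgroup of prime order of a perfect group is not normal. -/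
theorem not_normal (hperf : commutator G = ⊤) (P : Sylow p G)
    (hP : Nat.card (P : Subgroup G) = p) : ¬ (P : Subgroup G).Normal := by
  intro hn
  haveI := hn
  haveI : IsCyclic (P : Subgroup G) := isCyclic_of_prime_card hP
  have hcA : ∀ a b : MulAut (P : Subgroup G), a * b = b * a := by
    intro a b
    apply (IsCyclic.mulAutMulEquiv (G := (P : Subgroup G))).injective
    rw [map_mul, map_mul, mul_comm]
  refine not_normalizer_le hperf P hP ?_
  intro g _
  rw [Subgroup.mem_centralizer_iff]
  intro x hx
  have h := hom_trivial hperf (MulAut.conjNormal (H := (P : Subgroup G))) hcA g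
  have h' : g * x * g⁻¹ = x := by
    have := congrArg Subtype.val (MulEquiv.congr_fun h ⟨x, hx⟩)
    simpa [MulAut.conjNormal_apply] using this
  exact (mul_inv_eq_iff_eq_mul.1 h').symm

theorem perfect_quot (hperf : commutator G = ⊤) (R : Subgroup G) [R.Normal] :
    commutator (G ⧸ R) = ⊤ := by
  rw [commutator_def, ← Subgroup.map_top_of_surjective _ (QuotientGroup.mk'_surjective R),
    ← Subgroup.map_commutator, ← commutator_def, hperf]

/-- The order of a Sylow subgroup in a perfect group of order less than `p ^ 3`. -/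
theorem card_eq_prime {P : Sylow p G} (hdvd : p ∣ Nat.card G) (hbig : Nat.card G < p ^ 3)
    (hP : ¬ (P : Subgroup G).Normal) :
    Nat.card (P : Subgroup G) = p := by
  obtain ⟨j, hj⟩ := IsPGroup.iff_card.1 P.2
  have hj0 : j ≠ 0 := by
    rintro rfl
    exact P.ne_bot_of_dvd_card hdvd (Subgroup.card_eq_one.1 (by simpa using hj))
  have h2 := hp.out.two_le
  by_contra hne
  have hj1 : j ≠ 1 := fun h => hne (by rw [hj, h, pow_one])
  have hle : p ^ 2 ≤ Nat.card (Subgroup.normalizer ((P : Subgroup G) : Set G)) :=
    le_trans (Nat.pow_le_pow_right hp.out.pos (by omega)) (hj.symm.le.trans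
      (Subgroup.card_le_of_le (Subgroup.le_normalizer (H := (P : Subgroup G)))))
  have hmod : Nat.card (Sylow p G) % p = 1 := by
    have h : Nat.card (Sylow p G) % p = 1 % p := card_sylow_modEq_one p G
    rwa [Nat.mod_eq_of_lt hp.out.one_lt] at h
  have hn1 : Nat.card (Sylow p G) ≠ 1 := fun h => by
    haveI : Subsingleton (Sylow p G) := (Nat.card_eq_one_iff_unique.1 h).1
    exact hP (Sylow.normal_of_subsingleton P)
  have hge : p + 1 ≤ Nat.card (Sylow p G) := by
    have h := Nat.mod_add_div (Nat.card (Sylow p G)) p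
    rcases Nat.eq_zero_or_pos (Nat.card (Sylow p G) / p) with h0 | h0
    · rw [h0, mul_zero] at h; omega
    · have := Nat.le_mul_of_pos_right p h0; omega
  have hcard : Nat.card (Subgroup.normalizer ((P : Subgroup G) : Set G)) * Nat.card (Sylow p G)
      = Nat.card G := by
    rw [P.card_eq_index_normalizer]
    exact Subgroup.card_mul_index _
  have := Nat.mul_le_mul hle hge
  have : p ^ 3 ≤ p ^ 2 * (p + 1) := by rw [mul_add, pow_succ p 2]; omega
  omega

/-- Reduction to a simple normal subgroup. -/
theorem exists_simple_normal (hperf : commutator G = ⊤) (hdvd : p ∣ Nat.card G)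
    (hsq : ¬ p ^ 2 ∣ Nat.card G) (hcore : pPrimeCore p G = ⊥) :
    ∃ N : Subgroup G, N.Normal ∧ p ∣ Nat.card N ∧ IsSimpleGroup N ∧ ¬ IsMulCommutative N ∧
      ∀ x : G, x ^ p = 1 → x ∈ N := by
  classical
  -- the subgroup generated by the elements of order p
  set N := Subgroup.closure {x : G | x ^ p = 1} with hN
  haveI hNn : N.Normal := ⟨fun a ha g => by
    induction ha using Subgroup.closure_induction with
    | mem z hz => exact Subgroup.subset_closure (by
        show (g * z * g⁻¹) ^ p = 1
        rw [conj_pow, show z ^ p = 1 from hz, mul_one, mul_inv_cancel])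
    | one => simp
    | mul a b _ _ ha hb =>
        rw [show g * (a * b) * g⁻¹ = (g * a * g⁻¹) * (g * b * g⁻¹) by group]
        exact Subgroup.mul_mem _ ha hb
    | inv a _ ha =>
        rw [show g * a⁻¹ * g⁻¹ = (g * a * g⁻¹)⁻¹ by group]
        exact Subgroup.inv_mem _ ha⟩
  have hmem : ∀ x : G, x ^ p = 1 → x ∈ N := fun x hx => Subgroup.subset_closure hx
  obtain ⟨x, hx⟩ := exists_prime_orderOf_dvd_card' p hdvd
  have hxN : x ∈ N := hmem x (hx ▸ pow_orderOf_eq_one x)
  have hdN : p ∣ Nat.card N := hx ▸ Subgroup.orderOf_dvd_natCard N hxN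
  have hxne : x ≠ 1 := fun h => by
    rw [h, orderOf_one] at hx; exact hp.out.ne_one hx.symm
  have hNne : N ≠ ⊥ := fun h => hxne (Subgroup.mem_bot.1 (h ▸ hxN))
  -- a nontrivial normal subgroup of `G` contains `N`
  have hbig : ∀ L : Subgroup G, L.Normal → L ≠ ⊥ → p ∣ Nat.card L ∧ N ≤ L := by
    intro L hL hne
    haveI := hL
    have hd : p ∣ Nat.card L := by
      by_contra h
      exact hne (le_bot_iff.1 (hcore ▸ Components.le_pPrimeCore (N := L)
        (hp.out.coprime_iff_not_dvd.2 h).symm))
    refine ⟨hd, (Subgroup.closure_le _).2 fun y hy => ?_⟩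
    -- `y` lies in `L`, as `p` does not divide the index
    have hidx : ¬ p ∣ L.index := fun h => hsq (by
      rw [← L.card_mul_index, pow_two]; exact mul_dvd_mul hd h)
    have hy' : ((y : G ⧸ L)) ^ p = 1 := by
      rw [← QuotientGroup.mk_pow, show y ^ p = 1 from hy]; rfl
    have hone : (y : G ⧸ L) = 1 := by
      rcases hp.out.eq_one_or_self_of_dvd _ (orderOf_dvd_of_pow_eq_one hy') with h | h
      · exact orderOf_eq_one_iff.1 h
      · exfalso
        apply hidx
        rw [← h]
        exact orderOf_dvd_natCard (y : G ⧸ L)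
    exact (QuotientGroup.eq_one_iff y).1 hone
  have hcyc : ¬ IsMulCommutative N := by
    intro hc
    -- then every element of `N` has order dividing `p`
    have hpow : ∀ y ∈ N, y ^ p = 1 := by
      intro y hy
      induction hy using Subgroup.closure_induction with
      | mem z hz => exact hz
      | one => exact one_pow p
      | mul a b ha hb ha' hb' =>
        have hab : Commute a b :=
          congrArg Subtype.val (hc.is_comm.comm ⟨a, ha⟩ ⟨b, hb⟩)
        rw [hab.mul_pow, ha', hb', one_mul]
      | inv a _ ha' => rw [inv_pow, ha', inv_one]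
    have hPg : IsPGroup p N := fun y => ⟨1, by
      rw [pow_one]; exact Subtype.ext (by simpa using hpow _ y.2)⟩
    obtain ⟨P⟩ : Nonempty (Sylow p G) := inferInstance
    obtain ⟨j, hj⟩ := IsPGroup.iff_card.1 hPg
    have hj1 : j = 1 := by
      have hle : ¬ 2 ≤ j := fun h => hsq ((pow_dvd_pow p h).trans (hj ▸ Subgroup.card_subgroup_dvd_card N))
      have : j ≠ 0 := fun h => hNne (Subgroup.card_eq_one.1 (by rw [hj, h, pow_zero]))
      omega
    have hPN : (P : Subgroup G) = N := by
      refine (P.3 hPg ?_).symm
      intro y hy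
      refine hmem y ?_
      have h1 : Nat.card (P : Subgroup G) = p := by
        obtain ⟨i, hi⟩ := IsPGroup.iff_card.1 P.2
        have hle : ¬ 2 ≤ i := fun h => hsq ((pow_dvd_pow p h).trans
          (hi ▸ Subgroup.card_subgroup_dvd_card (P : Subgroup G)))
        have h0 : i ≠ 0 := by
          rintro rfl
          exact P.ne_bot_of_dvd_card hdvd (Subgroup.card_eq_one.1 (by simpa using hi))
        rw [hi, show i = 1 by omega, pow_one]
      have h2 := pow_card_eq_one' (x := (⟨y, hy⟩ : (P : Subgroup G)))
      rw [h1] at h2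
      simpa using congrArg Subtype.val h2
    exact not_normal hperf P (by rw [hPN, hj, hj1, pow_one]) (hPN ▸ hNn)
  refine ⟨N, hNn, hdN, ?_, hcyc, hmem⟩
  haveI : Nontrivial N := (Subgroup.nontrivial_iff_ne_bot N).2 hNne
  refine ⟨fun H hH => ?_⟩
  haveI := hH
  by_cases hd : p ∣ Nat.card H
  · -- `H` contains all elements of order `p`, and they generate a normal subgroup
    right
    have hidx : ¬ p ∣ H.index := fun h => hsq <| by
      refine Dvd.dvd.trans ?_ (Subgroup.card_subgroup_dvd_card N)
      rw [← H.card_mul_index, pow_two]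
      exact mul_dvd_mul hd h
    have hin : ∀ y : N, y ^ p = 1 → y ∈ H := by
      intro y hy
      have hy' : ((y : N ⧸ H)) ^ p = 1 := by
        rw [← QuotientGroup.mk_pow, hy]; rfl
      rcases hp.out.eq_one_or_self_of_dvd _ (orderOf_dvd_of_pow_eq_one hy') with h | h
      · exact (QuotientGroup.eq_one_iff y).1 (orderOf_eq_one_iff.1 h)
      · exact absurd (h ▸ orderOf_dvd_natCard (y : N ⧸ H)) hidx
    rw [eq_top_iff]
    intro y _
    have hy : (y : G) ∈ H.map N.subtype := by
      have hle : Subgroup.closure {x : G | x ^ p = 1} ≤ H.map N.subtype :=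
        (Subgroup.closure_le _).2 fun z hz =>
          ⟨⟨z, hmem z hz⟩, hin _ (Subtype.ext (by simpa using hz)), rfl⟩
      exact hle y.2
    obtain ⟨z, hz, hzy⟩ := hy
    rwa [← Subtype.ext (a1 := z) (a2 := y) hzy]
  · -- `H` lies in the `p'`-core of `N`
    left
    have hchar : (Cfsg.pPrimeCore p N).map N.subtype = ⊥ := by
      haveI := Cfsg.Agent.Lib.Components.pPrimeCore_characteristic (G := N) p
      by_contra hne
      obtain ⟨h1, -⟩ := hbig _ inferInstance hne
      rw [Subgroup.card_map_of_injective N.subtype_injective] at h1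
      exact Components.pPrimeCore_not_dvd (G := N) p h1
    have hle := Components.le_pPrimeCore (N := H) (hp.out.coprime_iff_not_dvd.2 hd).symm
    have : H.map N.subtype ≤ ⊥ := hchar ▸ Subgroup.map_mono hle
    rwa [le_bot_iff, Subgroup.map_eq_bot_iff_of_injective _ N.subtype_injective] at this

end Cfsg.Agent.Lib.Brauer43.Perfect
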