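import Cfsg.Agent.Lib.Brauer43.Arith
import Cfsg.Agent.Lib.Brauer43.Basic
import Cfsg.Agent.Lib.Brauer43.Perfect
import Cfsg.Agent.Lib.Brauer43.Reduce
import Cfsg.Agent.Lib.DefectOne.Exceptional
import Cfsg.Agent.Lib.Char.Integral

/-!
# Sylow subgroups of prime order in simple groups: self-centralising unless `n = F(p, u, h)`
-/

set_option autoImplicit false
set_option linter.unusedSectionVars false
set_option linter.style.haveILetI false

namespace Cfsg.Agent.Lib.Brauer43

open Cfsg Cfsg.Agent.Lib Cfsg.Agent.Lib.Char Cfsg.Agent.Lib.DefectOne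
open Cfsg.Agent.Lib.Char.UC (C N)
open scoped ComplexConjugate Classical

universe u

variable {p : ℕ} [hp : Fact p.Prime] {G : Type u} [Group G] [Fintype G] {P : Sylow p G} {n : ℕ}

/-- The class of a nontrivial element of `P`. -/
theorem index_centralizer_eq (hP : Nat.card (P : Subgroup G) = p)
    (hn : Nat.card (Sylow p G) = 1 + n * p) {x : G} (hx : x ∈ (P : Subgroup G)) (hx1 : x ≠ 1) :
    (Subgroup.centralizer ({x} : Set G)).index = (C P).relIndex (N P) * (1 + n * p) := by
  rw [star_of_card hP x hx hx1, ← hn, SmallSimple.card_sylow_eq_index P]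
  exact (Subgroup.relIndex_mul_index (UC.C_le_N P)).symm

/-- When `e = p - 1` the nontrivial elements of `P` are conjugate. -/
theorem exists_conj_of_relIndex (hP : Nat.card (P : Subgroup G) = p)
    (he : (C P).relIndex (N P) = p - 1) {x y : G} (hx : x ∈ (P : Subgroup G)) (hx1 : x ≠ 1)
    (hy : y ∈ (P : Subgroup G)) (hy1 : y ≠ 1) : ∃ g : G, g * x * g⁻¹ = y := by
  set K := (C P).subgroupOf (N P) with hK
  have hmem : ∀ g : N P, (⟨(g : G) * x * (g : G)⁻¹,
      (Subgroup.mem_normalizer_iff.1 g.2 x).1 hx⟩ : (P : Subgroup G)) ≠ 1 := fun g h =>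
    hx1 (conj_eq_one_iff.1 (congrArg Subtype.val h))
  let f : N P ⧸ K → {z : (P : Subgroup G) // z ≠ 1} := Quotient.lift
    (fun g : N P => ⟨⟨(g : G) * x * (g : G)⁻¹, (Subgroup.mem_normalizer_iff.1 g.2 x).1 hx⟩, hmem g⟩)
    (fun a b hab => by
      have hc : (a⁻¹ * b : N P).1 ∈ C P :=
        Subgroup.mem_subgroupOf.1 (QuotientGroup.leftRel_apply.1 hab : a⁻¹ * b ∈ K)
      have e := Subgroup.mem_centralizer_iff.1 hc x hx
      simp only [Subgroup.coe_mul, Subgroup.coe_inv] at e
      refine Subtype.ext (Subtype.ext ?_)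
      show (a : G) * x * (a : G)⁻¹ = (b : G) * x * (b : G)⁻¹
      calc (a : G) * x * (a : G)⁻¹ = (a : G) * (x * ((a : G)⁻¹ * b)) * (b : G)⁻¹ := by group
        _ = (a : G) * ((a : G)⁻¹ * b * x) * (b : G)⁻¹ := by rw [e]
        _ = (b : G) * x * (b : G)⁻¹ := by group)
  have hf : Function.Injective f := by
    intro a b
    refine Quotient.inductionOn₂ a b fun a b h => Quotient.sound ?_
    refine QuotientGroup.leftRel_apply.2 ?_
    have e : (a : G) * x * (a : G)⁻¹ = (b : G) * x * (b : G)⁻¹ :=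
      congrArg Subtype.val (congrArg Subtype.val h)
    show (a⁻¹ * b : N P).1 ∈ C P
    rw [show C P = Subgroup.centralizer ({x} : Set G) from (star_of_card hP x hx hx1).symm,
      Subgroup.mem_centralizer_singleton_iff]
    simp only [Subgroup.coe_mul, Subgroup.coe_inv]
    calc (a : G)⁻¹ * b * x = (a : G)⁻¹ * ((b : G) * x * (b : G)⁻¹) * b := by group
      _ = (a : G)⁻¹ * ((a : G) * x * (a : G)⁻¹) * b := by rw [e]
      _ = x * ((a : G)⁻¹ * b) := by group
  have hcard : Nat.card {z : (P : Subgroup G) // z ≠ 1} = p - 1 := by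
    rw [Nat.card_eq_fintype_card, Fintype.card_subtype_compl, Fintype.card_subtype_eq,
      ← Nat.card_eq_fintype_card, hP]
  have hbij := hf.bijective_of_nat_card_le (le_of_eq (by
    rw [hcard]
    exact he.symm))
  obtain ⟨q, hq⟩ := hbij.2 ⟨⟨y, hy⟩, fun h => hy1 (congrArg Subtype.val h)⟩
  induction q using Quotient.inductionOn with
  | h g => exact ⟨(g : G), congrArg Subtype.val (congrArg Subtype.val hq)⟩

/-- A perfect group with `n` not of the form `F(p, u, h)`, all whose nontrivial normal subgroups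
contain `P`, has a self-centralising `P`. -/
theorem self_of_noF (hperf : commutator G = ⊤)
    (hsub : ∀ L : Subgroup G, L.Normal → L ≠ ⊥ → (P : Subgroup G) ≤ L)
    (hP : Nat.card (P : Subgroup G) = p) (hcard : Nat.card (Sylow p G) = 1 + n * p)
    (hF : NoF p n) : C P = (P : Subgroup G) := by
  have hdvdG : p ∣ Nat.card G := by
    have h := (P : Subgroup G).card_subgroup_dvd_card
    rwa [hP] at h
  have hn1 : 1 ≤ n := by
    rcases Nat.eq_zero_or_pos n with h | h
    · exfalso
      rw [h, zero_mul, add_zero] at hcard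
      haveI : Subsingleton (Sylow p G) := (Nat.card_eq_one_iff_unique.1 hcard).1
      exact Perfect.not_normal hperf P hP (Sylow.normal_of_subsingleton P)
    · exact h
  obtain ⟨M, hM⟩ := Block.exists_isPModular (p := p) hp.out
  haveI := hM.2.1
  haveI := Block.resField_charP (M := M) hM
  have h1 : ∃ ψ ∈ principalBlock M G, ¬ p ∣ charDegree (ψ : G → ℂ) :=
    ⟨Block.oneIrr G, Block.oneIrr_mem, by
      rw [show charDegree (Block.oneIrr G : G → ℂ) = 1 from charDegree_one]
      exact hp.out.not_dvd_one⟩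
  obtain ⟨hediv, Z, Y, sgn, ε, hB, hd, hZ, hY, hε, hZv, -, hYr, hrel, -, hex⟩ :=
    exists_structure_full hM hP (oneTh P) Block.isPBlock_principalBlock (induced_principal hM hP) h1
      (by rw [Tgrp_oneTh]; exact relIndex_le_blockRank hM hP)
  rw [Tgrp_oneTh] at hediv hZ hY hex
  set e := (C P).relIndex (N P) with he
  set A := 1 + n * p with hA
  have hA2 : 2 ≤ A := by have := Nat.mul_pos hn1 hp.out.pos; omega
  have he2 : 2 ≤ e := by
    have h0 : e ≠ 0 := Subgroup.index_ne_zero_of_finite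
    have h1 : e ≠ 1 := fun h =>
      Perfect.not_normalizer_le hperf P hP (Subgroup.relIndex_eq_one.1 h)
    omega
  have hep : e ≤ p - 1 := Nat.le_of_dvd (by have := hp.out.two_le; omega) hediv
  have hp3 : 3 ≤ p := by omega
  have hmemB : ∀ χ ∈ Z ∪ Y, χ ∈ principalBlock M G := fun χ hχ => by
    rw [hB]; exact Finset.mem_union.1 hχ
  set g0 : IrrCharacter G → ℕ := fun χ => charDegree (χ : G → ℂ) with hg0
  have happ : ∀ χ : IrrCharacter G, (χ : G → ℂ) 1 = (g0 χ : ℂ) := fun χ =>
    apply_one_eq_charDegree (isCharacter_of_isIrr χ.2)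
  have hpos : ∀ χ : IrrCharacter G, 0 < g0 χ := fun χ => charDegree_pos χ.2
  -- sums over `P`
  have hcong : ∀ χ : IrrCharacter G, ∀ z : ℤ,
      (∑ x : (P : Subgroup G), (χ : G → ℂ) x) = (g0 χ : ℂ) - (z : ℂ) →
      ∃ m : ℕ, (g0 χ : ℤ) - z = p * m := by
    intro χ z hz
    obtain ⟨w, hw⟩ := CharTools.exists_nat_sum_subgroup (isCharacter_of_isIrr χ.2) (P : Subgroup G)
    rw [Finset.sum_subtype (p := (· ∈ (P : Subgroup G))) _ (fun x => by simp) _, hP] at hw
    refine ⟨w, ?_⟩
    have h' : ((g0 χ : ℂ)) - (z : ℂ) = (p : ℂ) * w := hz.symm.trans hw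
    exact_mod_cast h'
  have hsumZ : ∀ χ ∈ Z, ∀ y : G, y ∈ C P → ¬ p ∣ orderOf y →
      ∑ x : (P : Subgroup G), (χ : G → ℂ) ((x : G) * y) =
        (χ : G → ℂ) y + ((p : ℂ) - 1) * (sgn χ : ℂ) := by
    intro χ hχ y hy hyr
    rw [← Finset.add_sum_erase _ _ (Finset.mem_univ (1 : (P : Subgroup G))), OneMemClass.coe_one,
      one_mul, Finset.sum_congr rfl (g := fun _ => (sgn χ : ℂ)) (fun x hx => ?_), Finset.sum_const,
      Finset.card_erase_of_mem (Finset.mem_univ _), Finset.card_univ, ← Nat.card_eq_fintype_card,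
      hP, nsmul_eq_mul, Nat.cast_sub hp.out.pos, Nat.cast_one]
    rw [← (hZv χ hχ).2 x (Finset.ne_of_mem_erase hx)]
    exact apply_singular_principal hM hP (hmemB χ (Finset.mem_union_left _ hχ))
      (Finset.ne_of_mem_erase hx) (y := ⟨y, hy⟩) (by rwa [Subgroup.orderOf_mk])
  have hsumY : ∀ ψ ∈ Y, ∃ s : ℤ, (s = 1 ∨ s = -1) ∧ ∀ y : G, y ∈ C P → ¬ p ∣ orderOf y →
      ∑ x : (P : Subgroup G), (ψ : G → ℂ) ((x : G) * y) = (ψ : G → ℂ) y - (s : ℂ) * (e : ℕ) := by
    intro ψ hψ
    obtain ⟨s, hs, hR⟩ := hex ψ hψ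
    refine ⟨s, hs, fun y hy hyr => ?_⟩
    have hS := sum_S hP (oneTh P) ψ
    rw [← Finset.add_sum_erase _ _ (Finset.mem_univ (1 : (P : Subgroup G))), S_one, hR] at hS
    rw [← Finset.add_sum_erase _ _ (Finset.mem_univ (1 : (P : Subgroup G))), OneMemClass.coe_one,
      one_mul, Finset.sum_congr rfl (g := fun x => S hP (oneTh P) ψ x) (fun x hx =>
        apply_singular_principal hM hP (hmemB ψ (Finset.mem_union_right _ hψ))
          (Finset.ne_of_mem_erase hx) (y := ⟨y, hy⟩)
          (by rwa [Subgroup.orderOf_mk]))]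
    push_cast at hS
    linear_combination hS
  -- divisibility from class sums
  have hint : ∀ χ : IrrCharacter G, ∀ x : (P : Subgroup G), x ≠ 1 →
      IsIntegral ℤ (((e * A : ℕ) : ℂ) * (χ : G → ℂ) x / (χ : G → ℂ) 1) := fun χ x hx => by
    rw [← index_centralizer_eq hP hcard x.2 fun h => hx (Subtype.ext h)]
    exact Char.isIntegral_classSize_mul_div χ.2 (x : G)
  obtain ⟨x₀, hx₀, hx₀1⟩ := exists_mem_ne_one (P := P) hP
  have hdvd_val : ∀ χ : IrrCharacter G, ∀ z : ℤ, (z = 1 ∨ z = -1) →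
      (χ : G → ℂ) x₀ = (z : ℂ) → g0 χ ∣ e * A := by
    intro χ z hz hv
    have h := hint χ ⟨x₀, hx₀⟩ fun h => hx₀1 (congrArg Subtype.val h)
    rw [happ, hv] at h
    refine Char.dvd_of_isIntegral_div (hpos χ).ne' ?_
    rcases hz with rfl | rfl
    · simpa using h
    · simpa [neg_div] using h
  -- degrees of the signed characters
  have hclass : ∀ χ : IrrCharacter G, ∀ z : ℤ, (z = 1 ∨ z = -1) →
      (∀ y : G, y ∈ C P → ¬ p ∣ orderOf y →
        ∑ x : (P : Subgroup G), (χ : G → ℂ) ((x : G) * y) = (χ : G → ℂ) y + ((p : ℂ) - 1) * (z : ℂ)) →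
      g0 χ ∣ e * A → χ ≠ Block.oneIrr G →
      C P = (P : Subgroup G) ∨ ((A : ℤ) ∣ (g0 χ : ℤ) ∧ (z = -1 → e = p - 1)) := by
    intro χ z hz hsum hdvd hne
    have h0 := hsum 1 (one_mem _) (by rw [orderOf_one]; exact hp.out.not_dvd_one)
    simp only [mul_one, happ χ] at h0
    obtain ⟨m, hm⟩ := hcong χ (-((p : ℤ) - 1) * z) (by rw [h0]; push_cast; ring)
    have hdvd' : g0 χ ∣ (p - 1) * A := hdvd.trans (mul_dvd_mul_right hediv A)
    have hf1 : g0 χ ≠ 1 := by
      intro hf
      obtain ⟨l, hl⟩ := exists_hom_of_degree_one (isCharacter_of_isIrr χ.2)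
        (by rw [happ χ, hf, Nat.cast_one])
      exact hne (Subtype.ext (funext fun g => by
        rw [hl g, perfect_hom_trivial hperf l g, Units.val_one, Block.oneIrr_apply]))
    rcases hz with rfl | rfl
    · -- `g ≡ 1`
      right
      refine ⟨?_, by norm_num⟩
      obtain ⟨r, hr⟩ : ∃ r : ℕ, g0 χ = r * p + 1 := by
        refine ⟨m - 1, ?_⟩
        have hm1 : 1 ≤ m := Nat.pos_of_ne_zero fun h => by
          rw [h, Nat.cast_zero, mul_zero] at hm
          have : (0 : ℤ) < g0 χ := by exact_mod_cast hpos χ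
          have : (3 : ℤ) ≤ p := by exact_mod_cast hp3
          linarith
        have : (g0 χ : ℤ) = ((m - 1 : ℕ) : ℤ) * p + 1 := by
          rw [Nat.cast_sub hm1]; push_cast; linarith
        exact_mod_cast this
      rcases deg_plus hp3 hn1 hF hr hdvd' with rfl | rfl
      · exact absurd (by rw [hr, zero_mul]) hf1
      · rw [hr, hA, add_comm]
    · obtain ⟨u, hu⟩ : ∃ u : ℕ, g0 χ + 1 = u * p := by
        refine ⟨m + 1, ?_⟩
        have : (g0 χ : ℤ) + 1 = ((m + 1 : ℕ) : ℤ) * p := by push_cast; linarith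
        exact_mod_cast this
      -- no nontrivial normal subgroup lies in the kernel
      have hfaith : g0 χ + 1 = p → ∀ g : G, (χ : G → ℂ) g = (χ : G → ℂ) 1 → g = 1 := by
        intro hgp g hg
        have hc := isCharacter_of_isIrr χ.2
        by_contra hg1
        have hker : charKer (χ : G → ℂ) ≠ ⊥ := fun hb =>
          hg1 (Subgroup.mem_bot.1 (hb ▸ (mem_charKer hc).2 hg : g ∈ (⊥ : Subgroup G)))
        have hsub' := hsub _ (charKer_normal hc) hker
        have h1' := hsum 1 (one_mem _) (by rw [orderOf_one]; exact hp.out.not_dvd_one)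
        rw [Finset.sum_congr rfl (g := fun _ => (χ : G → ℂ) 1) (fun x _ => by
          rw [mul_one]; exact (mem_charKer hc).1 (hsub' x.2)), Finset.sum_const, Finset.card_univ,
          ← Nat.card_eq_fintype_card, hP, nsmul_eq_mul, happ] at h1'
        push_cast at h1'
        have h2 : ((p : ℂ) - 1) * ((g0 χ : ℂ) + 1) = 0 := by linear_combination h1'
        rw [← Nat.cast_one (R := ℂ), ← Nat.cast_sub hp.out.pos, ← Nat.cast_add, ← Nat.cast_mul,
          Nat.cast_eq_zero] at h2
        rcases Nat.mul_eq_zero.1 h2 with h3 | h3 <;> omega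
      rcases deg_minus_or hp3 hn1 hF hu hdvd' with h | h
      · left
        -- a regular element of `C P` lies in the kernel
        subst h
        have hreg : ∀ y : G, y ∈ C P → ¬ p ∣ orderOf y → y = 1 := fun y hy hyr =>
          eq_one_of_regular' (s := 1) (e := p - 1) (w := 0) hP (hfaith (by omega)) (Or.inl rfl)
            (by omega) zero_le_one (by simp)
            (by
              have : (g0 χ : ℤ) = ((p - 1 : ℕ) : ℤ) := by exact_mod_cast (show g0 χ = p - 1 by omega)
              simp only [Nat.cast_zero, mul_zero, one_mul]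
              rw [hg0] at this
              linarith)
            (fun y hy hyr => by
              rw [hsum y hy hyr, Nat.cast_sub hp.out.pos]; push_cast; ring) hy hyr
        refine le_antisymm (fun c hc => ?_) (UC.le_C (star_of_card hP))
        obtain ⟨x, y, hxy, -, hx, hy⟩ := exists_parts (⟨c, hc⟩ : C P)
        have := hreg (y : G) y.2 (by simpa using hy)
        have hc' : c = (x : G) * y := congrArg Subtype.val hxy.symm
        rw [hc', this, mul_one]
        exact hx
      · right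
        refine ⟨by rw [h]; exact Int.natCast_dvd_natCast.2 (dvd_mul_left _ _), fun _ => ?_⟩
        rw [h] at hdvd
        have := Nat.le_of_dvd (Nat.mul_pos (by omega) (by omega)) hdvd
        have := Nat.le_of_mul_le_mul_right this (by omega)
        omega
  by_contra hne
  have hZc : ∀ χ ∈ Z, χ ≠ Block.oneIrr G →
      (A : ℤ) ∣ (g0 χ : ℤ) ∧ (sgn χ = -1 → e = p - 1) := fun χ hχ h1 => by
    refine (hclass χ (sgn χ) (hZv χ hχ).1 (hsumZ χ hχ) (hdvd_val χ (sgn χ) (hZv χ hχ).1 ?_)
      h1).resolve_left hne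
    rw [← (hZv χ hχ).2 ⟨x₀, hx₀⟩ fun h => hx₀1 (congrArg Subtype.val h)]
    have h := apply_singular_principal hM hP (hmemB χ (Finset.mem_union_left _ hχ))
      (x := ⟨x₀, hx₀⟩) (fun h => hx₀1 (congrArg Subtype.val h)) (y := (1 : C P))
      (by rw [orderOf_one]; exact hp.out.not_dvd_one)
    simpa using h
  have hone : Block.oneIrr G ∈ Z ∪ Y := by
    have hmem : Block.oneIrr G ∈ principalBlock M G := Block.oneIrr_mem
    rw [hB] at hmem
    exact Finset.mem_union.2 hmem
  have hsgn1 : Block.oneIrr G ∈ Z → sgn (Block.oneIrr G) = 1 := fun h => by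
    have := hsumZ _ h 1 (one_mem _) (by rw [orderOf_one]; exact hp.out.not_dvd_one)
    simp only [Block.oneIrr_apply, Finset.sum_const, Finset.card_univ, ← Nat.card_eq_fintype_card,
      hP, nsmul_eq_mul, mul_one] at this
    have h2 : ((p : ℂ) - 1) * ((sgn (Block.oneIrr G) : ℂ) - 1) = 0 := by linear_combination -this
    rcases mul_eq_zero.1 h2 with h3 | h3
    · rw [sub_eq_zero] at h3
      exact absurd (by exact_mod_cast h3 : p = 1) hp.out.ne_one
    · rw [sub_eq_zero] at h3; exact_mod_cast h3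
  have hpp : (p : ℤ) * 1 ≤ p * p := by
    exact_mod_cast Nat.mul_le_mul_left p hp.out.pos
  obtain ⟨ψ, hψ⟩ := Finset.card_pos.1 (hY ▸ Nat.div_pos hep (by omega))
  obtain ⟨s, hs, hsum⟩ := hsumY ψ hψ
  have hrel1 : ε * (g0 ψ : ℤ) = ∑ χ ∈ Z, sgn χ * (g0 χ : ℤ) := by
    have h := hrel ψ hψ 1 (by rw [orderOf_one]; exact hp.out.not_dvd_one)
    rw [happ, Finset.sum_congr rfl (g := fun χ => (sgn χ : ℂ) * (g0 χ : ℂ))
      (fun χ _ => by rw [happ])] at h
    exact_mod_cast h
  have hone1 : g0 (Block.oneIrr G) = 1 := charDegree_one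
  rcases Nat.lt_or_ge e (p - 1) with hlt | hge
  · -- at least two exceptional characters
    have h2 : 2 ≤ Y.card := by
      rw [hY]
      obtain ⟨k, hk⟩ := hediv
      rw [hk, Nat.mul_div_cancel_left _ (by omega)]
      by_contra hh
      interval_cases k <;> omega
    have h1Z : Block.oneIrr G ∈ Z := by
      refine (Finset.mem_union.1 hone).resolve_right fun h => ?_
      obtain ⟨ψ', hψ', hne'⟩ := Finset.exists_mem_ne h2 (Block.oneIrr G)
      have hd' := hYr ψ' hψ' _ h 1 (by rw [orderOf_one]; exact hp.out.not_dvd_one)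
      rw [happ, happ, hone1] at hd'
      obtain ⟨l, hl⟩ := exists_hom_of_degree_one (isCharacter_of_isIrr ψ'.2)
        (by rw [happ, hd', Nat.cast_one])
      exact hne' (Subtype.ext (funext fun g => by
        rw [hl g, perfect_hom_trivial hperf l g, Units.val_one, Block.oneIrr_apply]))
    have hall : ∀ χ ∈ Z.erase (Block.oneIrr G), sgn χ * (g0 χ : ℤ) = (g0 χ : ℤ) := fun χ hχ => by
      have h := (hZc χ (Finset.mem_of_mem_erase hχ) (Finset.ne_of_mem_erase hχ)).2
      rcases (hZv χ (Finset.mem_of_mem_erase hχ)).1 with h' | h'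
      · rw [h', one_mul]
      · have := h h'; omega
    obtain ⟨K, hK⟩ : A ∣ ∑ χ ∈ Z.erase (Block.oneIrr G), g0 χ := Finset.dvd_sum fun χ hχ =>
      Int.natCast_dvd_natCast.1 (hZc χ (Finset.mem_of_mem_erase hχ) (Finset.ne_of_mem_erase hχ)).1
    rw [← Finset.add_sum_erase _ _ h1Z, hsgn1 h1Z, hone1, Finset.sum_congr rfl hall,
      ← Nat.cast_sum, hK] at hrel1
    have hlow : A * (e - 1) ≤ A * K := by
      rw [← hK, ← hZ, ← Finset.card_erase_of_mem h1Z, mul_comm, ← smul_eq_mul, ← Finset.sum_const]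
      refine Finset.sum_le_sum fun χ hχ => Nat.le_of_dvd (hpos χ) ?_
      exact Int.natCast_dvd_natCast.1
        (hZc χ (Finset.mem_of_mem_erase hχ) (Finset.ne_of_mem_erase hχ)).1
    have hD : g0 ψ = 1 + A * K := by
      rcases hε with rfl | rfl
      · have : (g0 ψ : ℤ) = ((1 + A * K : ℕ) : ℤ) := by push_cast at hrel1 ⊢; linarith
        exact_mod_cast this
      · have : (0 : ℤ) < g0 ψ := by exact_mod_cast hpos ψ
        have : (0 : ℤ) ≤ (A : ℤ) * K := by positivity
        push_cast at hrel1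
        linarith
    -- `D` divides `e * e * A`
    have hdD : g0 ψ ∣ e * (e * A) := by
      have h := IsIntegral.sum (R := ℤ) (s := Finset.univ.erase (1 : (P : Subgroup G)))
        (fun x : (P : Subgroup G) => ((e * A : ℕ) : ℂ) * (ψ : G → ℂ) x / (ψ : G → ℂ) 1)
        fun x hx => hint ψ x (Finset.ne_of_mem_erase hx)
      have h0 := hsum 1 (one_mem _) (by rw [orderOf_one]; exact hp.out.not_dvd_one)
      rw [← Finset.add_sum_erase _ _ (Finset.mem_univ (1 : (P : Subgroup G)))] at h0
      simp only [mul_one, OneMemClass.coe_one] at h0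
      rw [← Finset.sum_div, ← Finset.mul_sum,
        show ∑ x ∈ Finset.univ.erase (1 : (P : Subgroup G)), (ψ : G → ℂ) x = -((s : ℂ) * (e : ℕ)) by
          linear_combination h0, happ] at h
      refine Char.dvd_of_isIntegral_div (hpos ψ).ne' ?_
      rcases hs with rfl | rfl
      · rw [show ((e * (e * A) : ℕ) : ℂ) / (g0 ψ : ℂ) =
          -(((e * A : ℕ) : ℂ) * -(((1 : ℤ) : ℂ) * (e : ℂ)) / (g0 ψ : ℂ)) by push_cast; ring]
        exact h.neg
      · rw [show ((e * (e * A) : ℕ) : ℂ) / (g0 ψ : ℂ) =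
          ((e * A : ℕ) : ℂ) * -(((-1 : ℤ) : ℂ) * (e : ℂ)) / (g0 ψ : ℂ) by push_cast; ring]
        exact h
    have hco : Nat.Coprime (g0 ψ) A := by
      rw [hD, Nat.coprime_add_mul_left_left]; exact Nat.coprime_one_left A
    have hde : g0 ψ ∣ e * e := hco.dvd_of_dvd_mul_right (by rwa [mul_assoc])
    have := Nat.le_of_dvd (Nat.mul_pos (show 0 < e by omega) (show 0 < e by omega)) hde
    rw [hD] at this
    -- `1 + A (e - 1) ≤ e * e`
    obtain ⟨e', he'⟩ : ∃ e', e = e' + 2 := ⟨e - 2, by omega⟩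
    rw [he', show e' + 2 - 1 = e' + 1 by omega] at hlow
    rw [he'] at this
    have h3 : (1 + 1 * p) * (e' + 1) ≤ A * (e' + 1) :=
      Nat.mul_le_mul_right _ (by have := Nat.mul_le_mul_right p hn1; omega)
    have h4 : (e' + 4) * (e' + 1) ≤ (1 + 1 * p) * (e' + 1) := Nat.mul_le_mul_right _ (by omega)
    nlinarith
  · -- one exceptional character
    have hee : e = p - 1 := by omega
    have hYψ : Y = {ψ} := by
      refine (Finset.eq_of_subset_of_card_le (Finset.singleton_subset_iff.2 hψ) ?_).symm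
      rw [hY, hee, Nat.div_self (by omega), Finset.card_singleton]
    -- its value on `P` is constant
    have hconst : ∀ x : (P : Subgroup G), x ≠ 1 → (ψ : G → ℂ) x = (ψ : G → ℂ) x₀ := fun x hx => by
      obtain ⟨g, hg⟩ := exists_conj_of_relIndex hP hee hx₀ hx₀1 x.2 fun h => hx (Subtype.ext h)
      rw [← hg]
      exact isClassFunction_of_isIrr ψ.2 x₀ g
    have h0 := hsum 1 (one_mem _) (by rw [orderOf_one]; exact hp.out.not_dvd_one)
    rw [← Finset.add_sum_erase _ _ (Finset.mem_univ (1 : (P : Subgroup G))),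
      Finset.sum_congr rfl (g := fun _ => (ψ : G → ℂ) x₀) (fun x hx => by
        rw [mul_one]; exact hconst x (Finset.ne_of_mem_erase hx)), Finset.sum_const,
      Finset.card_erase_of_mem (Finset.mem_univ _), Finset.card_univ, ← Nat.card_eq_fintype_card,
      hP, nsmul_eq_mul, hee, OneMemClass.coe_one, mul_one] at h0
    have hv : (ψ : G → ℂ) x₀ = ((-s : ℤ) : ℂ) := by
      have hq : ((p - 1 : ℕ) : ℂ) ≠ 0 := Nat.cast_ne_zero.2 (by omega)
      refine mul_left_cancel₀ hq ?_
      push_cast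
      linear_combination h0
    have hψdvd : g0 ψ ∣ e * A := hdvd_val ψ (-s) (by omega) hv
    rcases Finset.mem_union.1 hone with h | h
    · -- `1` is not exceptional
      have hψ1 : ψ ≠ Block.oneIrr G := fun e' =>
        Finset.disjoint_left.1 hd h (e' ▸ hψ)
      have h5 := ((hclass ψ (-s) (by omega) (fun y hy hyr => by
        rw [hsum y hy hyr, hee, Nat.cast_sub hp.out.pos]; push_cast; ring) hψdvd hψ1).resolve_left
          hne).1
      rw [← Finset.add_sum_erase _ _ h, hsgn1 h, hone1] at hrel1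
      have h6 : (A : ℤ) ∣ ∑ χ ∈ Z.erase (Block.oneIrr G), sgn χ * (g0 χ : ℤ) :=
        Finset.dvd_sum fun χ hχ => dvd_mul_of_dvd_right
          (hZc χ (Finset.mem_of_mem_erase hχ) (Finset.ne_of_mem_erase hχ)).1 _
      have h7 : (A : ℤ) ∣ ε * (g0 ψ : ℤ) := dvd_mul_of_dvd_right h5 _
      rw [hrel1, dvd_add_left h6, Nat.cast_one, mul_one] at h7
      have := Int.le_of_dvd one_pos h7
      omega
    · have hψ1 : ψ = Block.oneIrr G := by
        rw [hYψ, Finset.mem_singleton] at h; exact h.symm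
      rw [hψ1, hone1] at hrel1
      have h7 : (A : ℤ) ∣ ε * ((1 : ℕ) : ℤ) := hrel1 ▸ Finset.dvd_sum fun χ hχ =>
        dvd_mul_of_dvd_right (hZc χ hχ fun h' => Finset.disjoint_left.1 hd hχ (h' ▸ hψ1 ▸ hψ)).1 _
      rcases hε with rfl | rfl <;> simp only [one_mul, neg_mul, dvd_neg, Nat.cast_one] at h7 <;>
        (have := Int.le_of_dvd one_pos h7; omega)

end Cfsg.Agent.Lib.Brauer43
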