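import Cfsg.Agent.Lib.Char.Induced
import Cfsg.Agent.Lib.Char.Linear
import Mathlib.GroupTheory.GroupAction.MultipleTransitivity

/-!
# The signed character on unordered pairs
-/

set_option autoImplicit false
set_option linter.unusedSectionVars false
set_option linter.style.haveILetI false

namespace Cfsg.Agent.Lib.Brauer43.PairSign

open Cfsg Cfsg.Agent.Lib Cfsg.Agent.Lib.Char
open scoped Classical ComplexConjugate

universe u v

variable {G : Type u} [Group G] [Fintype G] {Ω : Type v} [MulAction G Ω] [Fintype Ω]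

/-- The fixed point count. -/
noncomputable def fx (Ω : Type v) [MulAction G Ω] [Fintype Ω] (g : G) : ℂ :=
  ∑ v : Ω, if g • v = v then (1 : ℂ) else 0

theorem fx_eq (g : G) : fx Ω g = (Nat.card (MulAction.fixedBy Ω g) : ℂ) := by
  rw [fx, Finset.sum_boole, Nat.card_eq_fintype_card, Fintype.card_subtype]
  rfl

variable (G) in
/-- The setwise stabiliser of a pair. -/
def pairStab (a b : Ω) : Subgroup G where
  carrier := {g | (g • a = a ∧ g • b = b) ∨ (g • a = b ∧ g • b = a)}
  one_mem' := Or.inl ⟨one_smul _ _, one_smul _ _⟩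
  mul_mem' := by
    rintro g h (⟨g1, g2⟩ | ⟨g1, g2⟩) (⟨h1, h2⟩ | ⟨h1, h2⟩) <;>
      simp [mul_smul, g1, g2, h1, h2]
  inv_mem' := by
    rintro g (⟨g1, g2⟩ | ⟨g1, g2⟩)
    · exact Or.inl ⟨inv_smul_eq_iff.2 g1.symm, inv_smul_eq_iff.2 g2.symm⟩
    · exact Or.inr ⟨inv_smul_eq_iff.2 g2.symm, inv_smul_eq_iff.2 g1.symm⟩

/-- The sign character of the pair stabiliser. -/
noncomputable def sgnHom (a b : Ω) (hab : a ≠ b) : pairStab G a b →* ℂˣ where
  toFun h := if (h : G) • a = a then 1 else -1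
  map_one' := by simp
  map_mul' := by
    rintro ⟨g, hg⟩ ⟨h, hh⟩
    simp only [Subgroup.coe_mul, mul_smul]
    rcases hg with ⟨g1, g2⟩ | ⟨g1, g2⟩ <;> rcases hh with ⟨h1, h2⟩ | ⟨h1, h2⟩ <;>
      simp [g1, g2, h1, h2, hab, hab.symm]

/-- The induced sign character. -/
noncomputable def L (a b : Ω) (hab : a ≠ b) : G → ℂ :=
  indFun (pairStab G a b) fun h => ((sgnHom a b hab h : ℂˣ) : ℂ)

theorem isCharacter_L (a b : Ω) (hab : a ≠ b) : IsCharacter G (L (G := G) a b hab) :=
  isCharacter_indFun _ (isCharacter_of_isIrr (isIrrCharacter_linear (sgnHom a b hab)))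

theorem two_mul_L (h2 : ∀ a b c d : Ω, a ≠ b → c ≠ d → ∃ g : G, g • a = c ∧ g • b = d)
    {a b : Ω} (hab : a ≠ b) (g : G) :
    2 * L a b hab g = fx Ω g * fx Ω g - fx Ω (g * g) := by
  set H := pairStab G a b with hH
  -- the number of elements fixing `a` and `b`
  set k := (Finset.univ.filter fun x : G => x • a = a ∧ x • b = b).card with hk
  have hk0 : 0 < k := Finset.card_pos.2 ⟨1, by simp⟩
  obtain ⟨s, hs1, hs2⟩ := h2 a b b a hab hab.symm
  -- the stabiliser has order `2 k`
  have hHc : Nat.card H = 2 * k := by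
    rw [Nat.card_eq_fintype_card, Fintype.card_subtype]
    rw [show (Finset.univ.filter fun x : G => x ∈ H) =
        (Finset.univ.filter fun x : G => x • a = a ∧ x • b = b) ∪
          (Finset.univ.filter fun x : G => x • a = b ∧ x • b = a) by
      ext x; simp [hH, pairStab]]
    rw [Finset.card_union_of_disjoint (Finset.disjoint_left.2 fun x hx hx' =>
      hab ((Finset.mem_filter.1 hx).2.1.symm.trans (Finset.mem_filter.1 hx').2.1)), two_mul]
    congr 1
    refine (Finset.card_bij (fun x _ => s * x) ?_ (fun x _ y _ e => mul_left_cancel e) ?_).symm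
    · intro x hx
      obtain ⟨x1, x2⟩ := (Finset.mem_filter.1 hx).2
      simp [mul_smul, x1, x2, hs1, hs2]
    · intro y hy
      obtain ⟨y1, y2⟩ := (Finset.mem_filter.1 hy).2
      refine ⟨s⁻¹ * y, ?_, mul_inv_cancel_left s y⟩
      simp only [Finset.mem_filter, Finset.mem_univ, true_and, mul_smul, y1, y2, inv_smul_eq_iff]
      exact ⟨hs1.symm, hs2.symm⟩
  -- the summand, as a function of the image of the pair
  set F : Ω × Ω → ℂ := fun z =>
    (if g • z.1 = z.1 ∧ g • z.2 = z.2 then (1 : ℂ) else 0) -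
      (if g • z.1 = z.2 ∧ g • z.2 = z.1 then (1 : ℂ) else 0) with hF
  have hval : ∀ x : G, extendByZero H (fun h => ((sgnHom a b hab h : ℂˣ) : ℂ)) (x⁻¹ * g * x) =
      F (x • a, x • b) := by
    intro x
    have e1 : ∀ u v : Ω, (x⁻¹ * g * x) • u = v ↔ g • (x • u) = x • v := fun u v => by
      rw [mul_smul, mul_smul, inv_smul_eq_iff]
    have hne : x • a ≠ x • b := fun e => hab (MulAction.injective x e)
    simp only [hF]
    by_cases hm : x⁻¹ * g * x ∈ H
    · rw [extendByZero_mem _ _ hm]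
      rcases (show _ ∨ _ from hm) with ⟨m1, m2⟩ | ⟨m1, m2⟩
      · rw [if_pos ⟨(e1 a a).1 m1, (e1 b b).1 m2⟩,
          if_neg fun e => hne (((e1 a a).1 m1).symm.trans e.1), sub_zero]
        simp [sgnHom, m1]
      · rw [if_neg fun e => hne (e.1.symm.trans ((e1 a b).1 m1)),
          if_pos ⟨(e1 a b).1 m1, (e1 b a).1 m2⟩, zero_sub]
        simp [sgnHom, m1, hab.symm]
    · rw [extendByZero_not_mem _ _ hm,
        if_neg fun e => hm (Or.inl ⟨(e1 a a).2 e.1, (e1 b b).2 e.2⟩),
        if_neg fun e => hm (Or.inr ⟨(e1 a b).2 e.1, (e1 b a).2 e.2⟩), sub_zero]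
  have hsum : ∑ x : G, F (x • a, x • b) = (k : ℂ) * ∑ z : Ω × Ω, if z.1 ≠ z.2 then F z else 0 := by
    rw [← Finset.sum_fiberwise Finset.univ (fun x : G => (x • a, x • b)), Finset.mul_sum]
    refine Finset.sum_congr rfl fun z _ => ?_
    rw [Finset.sum_congr rfl (g := fun _ => F z) fun x hx => by rw [(Finset.mem_filter.1 hx).2],
      Finset.sum_const, nsmul_eq_mul]
    by_cases hz : z.1 = z.2
    · rw [Finset.filter_false_of_mem fun x _ (e : (x • a, x • b) = z) => by
        subst e; exact hab (MulAction.injective x hz)]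
      simp [hz]
    · rw [if_pos hz]
      obtain ⟨s', h1, h2'⟩ := h2 a b z.1 z.2 hab hz
      congr 2
      rw [hk]
      refine Finset.card_bij (fun x _ => s'⁻¹ * x) ?_ (fun x _ y _ e => mul_left_cancel e) ?_
      · intro x hx
        have e := (Finset.mem_filter.1 hx).2
        simp only [Finset.mem_filter, Finset.mem_univ, true_and, mul_smul, inv_smul_eq_iff, h1, h2']
        exact ⟨congrArg Prod.fst e, congrArg Prod.snd e⟩
      · intro y hy
        obtain ⟨y1, y2⟩ := (Finset.mem_filter.1 hy).2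
        refine ⟨s' * y, ?_, inv_mul_cancel_left s' y⟩
        simp [mul_smul, y1, y2, h1, h2']
  have hcount : (∑ z : Ω × Ω, if z.1 ≠ z.2 then F z else 0) =
      fx Ω g * fx Ω g - fx Ω (g * g) := by
    have e1 : fx Ω g * fx Ω g =
        ∑ z : Ω × Ω, if g • z.1 = z.1 ∧ g • z.2 = z.2 then (1 : ℂ) else 0 := by
      rw [fx, Finset.sum_mul_sum, Fintype.sum_prod_type]
      refine Finset.sum_congr rfl fun u _ => Finset.sum_congr rfl fun v _ => ?_
      simp only [← ite_and, ite_mul, zero_mul, one_mul]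
    have e2 : fx Ω (g * g) =
        ∑ z : Ω × Ω, if g • z.1 = z.2 ∧ g • z.2 = z.1 then (1 : ℂ) else 0 := by
      rw [fx, Fintype.sum_prod_type]
      refine Finset.sum_congr rfl fun u _ => ?_
      simp only [ite_and, Finset.sum_ite_eq, Finset.mem_univ, if_true, mul_smul]
    rw [e1, e2, ← Finset.sum_sub_distrib]
    refine Finset.sum_congr rfl fun z _ => ?_
    simp only [hF]
    by_cases hz : z.1 = z.2
    · simp [hz]
    · rw [if_pos hz]
  change 2 * ((Nat.card H : ℂ)⁻¹ * ∑ x : G,
    extendByZero H (fun h => ((sgnHom a b hab h : ℂˣ) : ℂ)) (x⁻¹ * g * x)) = _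
  rw [hHc, Finset.sum_congr rfl fun x _ => hval x, hsum, hcount]
  have hk' : (k : ℂ) ≠ 0 := Nat.cast_ne_zero.2 hk0.ne'
  push_cast
  field_simp

theorem classInner_L_one {a b : Ω} (hab : a ≠ b) {s : G} (hs1 : s • a = b) (hs2 : s • b = a) :
    classInner (L a b hab) (fun _ : G => (1 : ℂ)) = 0 := by
  rw [L, classInner_indFun _ _ (fun _ _ => rfl), classInner]
  have : ∑ h : pairStab G a b, ((sgnHom a b hab h : ℂˣ) : ℂ) = 0 := by
    refine sum_hom_units_eq_zero ((Units.coeHom ℂ).comp (sgnHom a b hab)) fun e => ?_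
    have := DFunLike.congr_fun e ⟨s, Or.inr ⟨hs1, hs2⟩⟩
    simp [sgnHom, hs1, hab.symm] at this
    norm_num at this
  simp [this]

theorem classInner_L_fx_ne {a b : Ω} (hab : a ≠ b) :
    classInner (L a b hab) (fx Ω : G → ℂ) ≠ 0 := by
  have hcf : IsClassFunction G (fx Ω : G → ℂ) := fun g x => by
    rw [fx, fx]
    refine Fintype.sum_equiv (MulAction.toPerm x⁻¹) _ _ fun v => ?_
    simp only [MulAction.toPerm_apply, mul_smul, smul_eq_iff_eq_inv_smul x]
  rw [L, classInner_indFun _ _ hcf, classInner]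
  refine mul_ne_zero (inv_ne_zero (Nat.cast_ne_zero.2 Nat.card_pos.ne')) ?_
  set H := pairStab G a b
  set l : H →* ℂˣ := sgnHom a b hab
  have hsum : ∑ h : H, ((l h : ℂˣ) : ℂ) * conj (fx Ω (h : G)) =
      ∑ v : Ω, ((if ∀ h : MulAction.stabilizer H v, l (h : H) = 1
        then Nat.card (MulAction.stabilizer H v) else 0 : ℕ) : ℂ) := by
    simp only [fx, map_sum, Finset.mul_sum]
    rw [Finset.sum_comm]
    refine Finset.sum_congr rfl fun v _ => ?_
    simp only [apply_ite conj, map_one, map_zero, mul_ite, mul_one, mul_zero]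
    rw [← Finset.sum_filter]
    rw [Finset.sum_subtype (p := (· ∈ MulAction.stabilizer H v)) _ (fun h => by
      simp [MulAction.mem_stabilizer_iff, Subgroup.smul_def])]
    split_ifs with hall
    · rw [Finset.sum_congr rfl fun h _ => by rw [hall h, Units.val_one], Finset.sum_const,
        Finset.card_univ, Nat.card_eq_fintype_card, nsmul_eq_mul, mul_one]
    · rw [Nat.cast_zero]
      refine sum_hom_units_eq_zero
        ((Units.coeHom ℂ).comp (l.comp (MulAction.stabilizer H v).subtype)) fun e => hall fun h =>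
          Units.ext (DFunLike.congr_fun e h)
  rw [hsum, ← Nat.cast_sum, Nat.cast_ne_zero]
  intro h0
  have h1 := Finset.sum_eq_zero_iff.1 h0 a (Finset.mem_univ a)
  rw [if_pos] at h1
  · exact Nat.card_pos.ne' h1
  · rintro ⟨h, hh⟩
    have e : (h : G) • a = a := hh
    simp [l, sgnHom, e]

end Cfsg.Agent.Lib.Brauer43.PairSign
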