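import Cfsg.Agent.Lib.Brauer43.PairSign
import Cfsg.Agent.Lib.DefectOne.Principal
import Cfsg.Agent.Lib.DefectOne.GaloisConj
import Cfsg.Agent.Lib.Perm.Burnside
import Cfsg.Agent.Lib.Block.Exist
import Cfsg.Agent.S0157

/-!
# Groups of prime degree with Sylow normaliser of order `2 p`
-/

set_option autoImplicit false
set_option linter.unusedSectionVars false
set_option linter.style.haveILetI false

namespace Cfsg.Agent.Lib.Brauer43.PrimeTwoP

open Cfsg Cfsg.Agent.Lib Cfsg.Agent.Lib.Char Cfsg.Agent.Lib.DefectOne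
open Cfsg.Agent.Lib.Char.UC (C N)
open Cfsg.Agent.Lib.Brauer43.PairSign
open scoped Classical ComplexConjugate Pointwise

universe u v

variable {p : ℕ} [hp : Fact p.Prime] {G : Type u} [Group G] [Fintype G] {Ω : Type v}
  [MulAction G Ω] [FaithfulSMul G Ω] [Fintype Ω]

/-- A transitive group of prime degree is doubly transitive unless its Sylow subgroup is
normal. -/
theorem two_trans (hΩ : Nat.card Ω = p) (P : Sylow p G) (hdvd : p ∣ Nat.card G)
    (hnn : ¬ (P : Subgroup G).Normal) [MulAction.IsPretransitive G Ω] :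
    MulAction.IsMultiplyPretransitive G Ω 2 := by
  obtain ⟨c, hc⟩ := exists_prime_orderOf_dvd_card' p hdvd
  obtain ⟨e, he⟩ := Perm.exists_label_faithful (Ω := Ω) hΩ hc
  refine Perm.two_transitive he fun haff => hnn ?_
  have hnorm : (Subgroup.zpowers c).Normal := by
    refine ⟨fun z hz g => ?_⟩
    obtain ⟨i, rfl⟩ := Subgroup.mem_zpowers_iff.1 hz
    set b : ZMod p := Perm.slope e g * (i : ZMod p) with hb
    refine Subgroup.mem_zpowers_iff.2 ⟨(b.val : ℤ), ?_⟩
    refine eq_of_smul_eq_smul (α := Ω) fun x => e.injective ?_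
    rw [he.zpow, Int.cast_natCast, ZMod.natCast_zmod_val, mul_smul, mul_smul,
      Perm.slope_spec (haff g), he.zpow]
    have h := Perm.slope_spec (haff g) (g⁻¹ • x)
    rw [smul_inv_smul] at h
    rw [hb, h]
    ring
  have hPc : (P : Subgroup G) = Subgroup.zpowers c := by
    haveI := hnorm
    have hle : Subgroup.zpowers c ≤ (P : Subgroup G) := by
      have hsup : (P : Subgroup G) ⊔ Subgroup.zpowers c = (P : Subgroup G) :=
        P.3 (IsPGroup.to_sup_of_normal_right P.2
          (IsPGroup.of_card (n := 1) (by rw [Nat.card_zpowers, hc, pow_one]))) le_sup_left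
      exact hsup ▸ le_sup_right
    refine (Subgroup.eq_of_le_of_card_ge hle ?_).symm
    rw [Nat.card_zpowers, hc, Perm.card_sylow_of_prime (Ω := Ω) hΩ P]
  rw [hPc]; exact hnorm

/-- The main computation: only the identity fixes three points, and the order. -/
theorem fix_bound (hΩ : Nat.card Ω = p) (hp5 : 5 ≤ p) (P : Sylow p G)
    (hN : Nat.card (N P) = 2 * p) [MulAction.IsPretransitive G Ω]
    (h2t : MulAction.IsMultiplyPretransitive G Ω 2) :
    ∀ g : G, 3 ≤ Nat.card (MulAction.fixedBy Ω g) → g = 1 := by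
  haveI : Nonempty Ω := (Nat.card_pos_iff.1 (hΩ ▸ hp.out.pos)).1
  have hΩ' : Fintype.card Ω = p := by rw [← Nat.card_eq_fintype_card, hΩ]
  have h2 : ∀ a b c d : Ω, a ≠ b → c ≠ d → ∃ g : G, g • a = c ∧ g • b = d :=
    fun a b c d hab hcd => MulAction.is_two_pretransitive_iff.mp h2t hab hcd
  have hP : Nat.card (P : Subgroup G) = p := Perm.card_sylow_of_prime (Ω := Ω) hΩ P
  have hdvd := p_dvd_card hP
  obtain ⟨x₀, hx₀, hx₀1⟩ := exists_mem_ne_one (P := P) hP
  have ho₀ : orderOf x₀ = p := by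
    rcases (Nat.dvd_prime hp.out).1 (hP ▸ (P : Subgroup G).orderOf_dvd_natCard hx₀) with h | h
    · exact absurd (orderOf_eq_one_iff.1 h) hx₀1
    · exact h
  have hself : C P = (P : Subgroup G) := by
    rw [show C P = Subgroup.centralizer ({x₀} : Set G) from (star_of_card hP x₀ hx₀ hx₀1).symm,
      Perm.centralizer_eq_zpowers_of_prime (Ω := Ω) hΩ ho₀]
    exact Subgroup.eq_of_le_of_card_ge (Subgroup.zpowers_le.2 hx₀)
      (by rw [Nat.card_zpowers, ho₀, hP])
  have he : (C P).relIndex (N P) = 2 := by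
    have h := ((C P).subgroupOf (N P)).card_mul_index
    rw [Nat.card_congr (Subgroup.subgroupOfEquivOfLe (UC.C_le_N P)).toEquiv, hself, hP, hN,
      mul_comm 2 p] at h
    rw [hself]
    exact Nat.eq_of_mul_eq_mul_left hp.out.pos h
  obtain ⟨M, hM⟩ := Block.exists_isPModular (p := p) hp.out
  haveI := hM.2.1
  obtain ⟨-, Z, Y, sgn, ε, hB, hd, hZ, hY, hε, hZv, -, hYr, hrel⟩ := principal_structure hM hP
  rw [he] at hZ hY
  have hYc : 2 ≤ Y.card := by rw [hY]; omega
  -- fixed points of singular elements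
  have hnofix : ∀ y : G, orderOf y = p → ∀ v : Ω, y • v ≠ v := by
    intro y hy v hv
    obtain ⟨e, he⟩ := Perm.exists_label_faithful (Ω := Ω) hΩ hy
    have := he v
    rw [hv] at this
    exact one_ne_zero (α := ZMod p) (by linear_combination -this)
  have hsing : ∀ g : G, p ∣ orderOf g → fx Ω g = 0 := by
    intro g hg
    have ho : orderOf (g ^ (orderOf g / p)) = p := orderOf_pow_orderOf_div (orderOf_pos g).ne' hg
    refine Finset.sum_eq_zero fun v _ => if_neg fun hv => hnofix _ ho v ?_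
    exact MulAction.mem_stabilizer_iff.1 (pow_mem (MulAction.mem_stabilizer_iff.2 hv) _)
  have hp2 : ¬ p ∣ 2 := fun h => by have := Nat.le_of_dvd two_pos h; omega
  have hsing2 : ∀ g : G, p ∣ orderOf g → fx Ω (g * g) = 0 := by
    intro g hg
    refine hsing _ ?_
    rw [← pow_two, orderOf_pow]
    have h2d : Nat.gcd (orderOf g) 2 ∣ 2 := Nat.gcd_dvd_right _ _
    have := Nat.div_mul_cancel (Nat.gcd_dvd_left (orderOf g) 2)
    rw [← this] at hg
    exact (hp.out.dvd_mul.1 hg).resolve_right fun h => hp2 (h.trans h2d)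
  -- the character of degree `p - 1`
  have hirr : IsIrrCharacter G (fun g => (Nat.card (MulAction.fixedBy Ω g) : ℂ) - 1) :=
    (Cfsg.Agent.S0157.result Ω (by omega)).2 h2t
  set θ : IrrCharacter G := ⟨_, hirr⟩ with hθdef
  have hθ : ∀ g : G, (θ : G → ℂ) g = fx Ω g - 1 := fun g => by rw [fx_eq]
  have hfx1 : fx Ω (1 : G) = (p : ℂ) := by
    simp [fx, hΩ']
  set one := Block.oneIrr G with hone
  have hone1 : ∀ g : G, (one : G → ℂ) g = 1 := fun g => Block.oneIrr_apply g
  have hθne : θ ≠ one := by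
    intro h
    have e : (θ : G → ℂ) 1 = (one : G → ℂ) 1 := by rw [h]
    rw [hθ, hone1, hfx1, sub_eq_iff_eq_add] at e
    norm_num at e
    have : p = 2 := by exact_mod_cast e
    omega
  -- a linear character of the form `1` on regular elements is `1`
  have hmem1 : one ∈ Z ∪ Y := by
    have hmem : one ∈ principalBlock M G := Block.oneIrr_mem
    rw [hB] at hmem
    exact Finset.mem_union.2 hmem
  have h1Z : one ∈ Z := by
    refine (Finset.mem_union.1 hmem1).resolve_right fun h => ?_
    obtain ⟨ψ, hψ, hψne⟩ := Finset.exists_mem_ne hYc one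
    have hreg : ∀ g : G, ¬ p ∣ orderOf g → (ψ : G → ℂ) g = 1 := fun g hg =>
      (hYr ψ hψ one h g hg).trans (hone1 g)
    obtain ⟨l, hl⟩ := exists_hom_of_degree_one (isCharacter_of_isIrr ψ.2)
      (hreg 1 (by rw [orderOf_one]; exact hp.out.not_dvd_one))
    refine hψne (Subtype.ext (funext fun g => ?_))
    rw [hone1]
    by_cases hg : p ∣ orderOf g
    · -- `g` is conjugate into `P`, and `P` lies in the derived group
      have hlP : ∀ y ∈ (P : Subgroup G), l y = 1 := by
        have hne : ¬ N P ≤ C P := fun hle => by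
          have := Subgroup.card_le_of_le hle
          rw [hN, hself, hP] at this
          omega
        obtain ⟨n, hn, hnC⟩ := SetLike.not_le_iff_exists.1 hne
        intro y hy
        rcases eq_or_ne y 1 with rfl | hy1
        · exact map_one l
        have hy' : n * y * n⁻¹ ∈ (P : Subgroup G) := (Subgroup.mem_normalizer_iff.1 hn y).1 hy
        have hne' : n * y * n⁻¹ * y⁻¹ ≠ 1 := by
          intro e
          refine hnC ?_
          rw [show C P = Subgroup.centralizer ({y} : Set G) from (star_of_card hP y hy hy1).symm,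
            Subgroup.mem_centralizer_singleton_iff]
          exact mul_inv_eq_iff_eq_mul.1 (mul_inv_eq_one.1 e)
        have hw : n * y * n⁻¹ * y⁻¹ ∈ (P : Subgroup G) := mul_mem hy' (inv_mem hy)
        have hgen : Subgroup.zpowers (n * y * n⁻¹ * y⁻¹) = (P : Subgroup G) := by
          refine Subgroup.eq_of_le_of_card_ge (Subgroup.zpowers_le.2 hw) ?_
          rw [hP, Nat.card_zpowers]
          rcases (Nat.dvd_prime hp.out).1 (hP ▸ (P : Subgroup G).orderOf_dvd_natCard hw) with h | h
          · exact absurd (orderOf_eq_one_iff.1 h) hne'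
          · rw [h]
        obtain ⟨i, hi⟩ := Subgroup.mem_zpowers_iff.1 (hgen ▸ hy : y ∈ Subgroup.zpowers _)
        rw [← hi, map_zpow, show l (n * y * n⁻¹ * y⁻¹) = 1 by
          rw [map_mul, map_mul, map_mul, map_inv, map_inv, mul_comm (l n), mul_inv_cancel_right,
            mul_inv_cancel], one_zpow]
      have ho : orderOf (g ^ (orderOf g / p)) = p := orderOf_pow_orderOf_div (orderOf_pos g).ne' hg
      have hgP : g ∈ Subgroup.zpowers (g ^ (orderOf g / p)) := by
        rw [← Perm.centralizer_eq_zpowers_of_prime (Ω := Ω) hΩ ho,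
          Subgroup.mem_centralizer_singleton_iff]
        exact (Commute.self_pow g _).eq
      obtain ⟨Q, hQ⟩ := (IsPGroup.of_card (n := 1) (by rw [Nat.card_zpowers, ho, pow_one]) :
        IsPGroup p (Subgroup.zpowers (g ^ (orderOf g / p)))).exists_le_sylow
      obtain ⟨h', hh'⟩ := MulAction.exists_smul_eq G P Q
      have hgQ : g ∈ MulAut.conj h' • (P : Subgroup G) := by
        have := hQ hgP
        rw [← hh'] at this
        exact this
      obtain ⟨y, hy, rfl⟩ := (Subgroup.mem_smul_pointwise_iff_exists _ _ _).1 hgQ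
      rw [hl]
      simp [MulAut.smul_def, hlP y hy]
    · exact hreg g hg
  have hsgn1 : sgn one = 1 := by
    have h := ((hZv one h1Z).2.2 x₀ hx₀ hx₀1 1 (one_mem _)
      (by rw [orderOf_one]; exact hp.out.not_dvd_one)).symm
    rw [hone1] at h
    exact_mod_cast h
  -- the differences vanishing on regular elements
  let Δ : IrrCharacter G → G → ℂ := fun ψ =>
    (ε : ℂ) • (ψ : G → ℂ) - ∑ χ ∈ Z, (sgn χ : ℂ) • (χ : G → ℂ)
  have hΔ : ∀ ψ ∈ Y, ∀ g : G, ¬ p ∣ orderOf g → Δ ψ g = 0 := fun ψ hψ g hg => by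
    simp only [Δ, Pi.sub_apply, Pi.smul_apply, smul_eq_mul, Finset.sum_apply]
    rw [hrel ψ hψ g hg, sub_self]
  have hinner : ∀ ψ : IrrCharacter G, ∀ χ : IrrCharacter G, classInner (χ : G → ℂ) (Δ ψ) =
      (if χ = ψ then (ε : ℂ) else 0) - (if χ ∈ Z then (sgn χ : ℂ) else 0) := by
    intro ψ χ
    simp only [Δ]
    rw [classInner_sub_right, classInner_smul_right, classInner_irrCharacter, classInner_sum_right,
      Finset.sum_congr rfl (g := fun χ' => if χ = χ' then (sgn χ' : ℂ) else 0) (fun χ' _ => by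
        rw [classInner_smul_right, classInner_irrCharacter, map_intCast, mul_ite, mul_one, mul_zero]),
      Finset.sum_ite_eq, map_intCast, mul_ite, mul_one, mul_zero]
  have hθone : ∀ ψ ∈ Y, classInner (θ : G → ℂ) (Δ ψ) = -classInner (one : G → ℂ) (Δ ψ) := by
    intro ψ hψ
    rw [← classInner_neg_left]
    simp only [classInner]
    congr 1
    refine Finset.sum_congr rfl fun g _ => ?_
    by_cases hg : p ∣ orderOf g
    · rw [hθ, hsing g hg, Pi.neg_apply, hone1]; ring
    · rw [hΔ ψ hψ g hg, map_zero, mul_zero, mul_zero]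
  have honeΔ : ∀ ψ ∈ Y, classInner (one : G → ℂ) (Δ ψ) = -1 := fun ψ hψ => by
    rw [hinner, if_neg (show one ≠ ψ from fun e => Finset.disjoint_left.1 hd h1Z (e ▸ hψ)), if_pos h1Z, hsgn1]
    simp
  have hθZ : θ ∈ Z := by
    by_contra hθZ
    obtain ⟨ψ, hψ, hψne⟩ := Finset.exists_mem_ne hYc θ
    have h := hθone ψ hψ
    rw [honeΔ ψ hψ, hinner, if_neg hψne.symm, if_neg hθZ] at h
    norm_num at h
  obtain ⟨ψ₁, hψ₁⟩ := Finset.card_pos.1 (show 0 < Y.card by omega)
  have hnY : ∀ χ ∈ Z, χ ∉ Y := fun χ hχ => Finset.disjoint_left.1 hd hχ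
  have hsgnθ : sgn θ = -1 := by
    have h := hθone ψ₁ hψ₁
    rw [honeΔ ψ₁ hψ₁, hinner, if_neg (show θ ≠ ψ₁ from fun e => hnY θ hθZ (e ▸ hψ₁)), if_pos hθZ] at h
    have : (sgn θ : ℂ) = ((-1 : ℤ) : ℂ) := by push_cast; linear_combination -h
    exact_mod_cast this
  have hZeq : Z = {one, θ} := by
    refine (Finset.eq_of_subset_of_card_le ?_ ?_).symm
    · intro χ hχ
      rcases Finset.mem_insert.1 hχ with rfl | hχ
      · exact h1Z
      · rw [Finset.mem_singleton.1 hχ]; exact hθZ
    · rw [hZ, Finset.card_pair hθne.symm]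
  have hreg : ∀ ψ ∈ Y, ∀ g : G, ¬ p ∣ orderOf g → (ε : ℂ) * (ψ : G → ℂ) g = 2 - fx Ω g := by
    intro ψ hψ g hg
    rw [hrel ψ hψ g hg, hZeq, Finset.sum_pair hθne.symm, hsgn1, hsgnθ, hone1, hθ]
    push_cast; ring
  have hεm : ε = -1 := by
    refine hε.resolve_left fun e => ?_
    have h := hreg ψ₁ hψ₁ 1 (by rw [orderOf_one]; exact hp.out.not_dvd_one)
    rw [hfx1, apply_one_eq_charDegree (isCharacter_of_isIrr ψ₁.2), e] at h
    push_cast at h
    have h' : ((charDegree (ψ₁ : G → ℂ) + p : ℕ) : ℂ) = ((2 : ℕ) : ℂ) := by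
      push_cast; linear_combination h
    have := (Nat.cast_inj (R := ℂ)).1 h'
    omega
  have hψval : ∀ ψ ∈ Y, ∀ g : G, ¬ p ∣ orderOf g → (ψ : G → ℂ) g = fx Ω g - 2 := by
    intro ψ hψ g hg
    have h := hreg ψ hψ g hg
    rw [hεm] at h
    push_cast at h
    linear_combination -h
  -- the signed character on pairs
  obtain ⟨a, b, hab⟩ := Fintype.exists_pair_of_one_lt_card (α := Ω) (by omega)
  obtain ⟨s, hs1, hs2⟩ := h2 a b b a hab hab.symm
  set Lc : G → ℂ := L a b hab with hLc
  have hL : ∀ g : G, 2 * Lc g = fx Ω g * fx Ω g - fx Ω (g * g) := two_mul_L h2 hab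
  obtain ⟨m, hm⟩ := isCharacter_eq_sum (isCharacter_L (G := G) a b hab)
  rw [← hLc] at hm
  have hmi : ∀ χ : IrrCharacter G, classInner Lc (χ : G → ℂ) = (m χ : ℂ) := by
    intro χ
    rw [hm, classInner_sum_left, Finset.sum_eq_single χ]
    · rw [classInner_smul_left, classInner_irrCharacter, if_pos rfl, mul_one]
    · intro χ' _ hne
      rw [classInner_smul_left, classInner_irrCharacter, if_neg hne, mul_zero]
    · exact fun h => absurd (Finset.mem_univ _) h
  have hm1 : m one = 0 := by
    have h := hmi one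
    rw [show (one : G → ℂ) = fun _ => (1 : ℂ) from funext hone1, hLc,
      classInner_L_one hab hs1 hs2] at h
    exact_mod_cast h.symm
  have hmθ : m θ ≠ 0 := by
    intro h0
    have h := hmi θ
    rw [h0, Nat.cast_zero, show (θ : G → ℂ) = (fx Ω : G → ℂ) - (one : G → ℂ) from funext fun g => by
      rw [hθ, Pi.sub_apply, hone1], classInner_sub_right, hmi one, hm1, Nat.cast_zero, sub_zero,
      hLc] at h
    exact classInner_L_fx_ne hab h
  have hmY : ∀ ψ ∈ Y, m ψ = m θ := by
    intro ψ hψ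
    have h0 : classInner Lc (Δ ψ) = 0 := by
      rw [classInner]
      refine mul_eq_zero_of_right _ (Finset.sum_eq_zero fun g _ => ?_)
      by_cases hg : p ∣ orderOf g
      · have h := hL g
        rw [hsing g hg, hsing2 g hg, mul_zero, sub_zero] at h
        rw [(mul_eq_zero.1 h).resolve_left two_ne_zero, zero_mul]
      · rw [hΔ ψ hψ g hg, map_zero, mul_zero]
    simp only [Δ] at h0
    rw [classInner_sub_right, classInner_smul_right, hmi, classInner_sum_right, hZeq,
      Finset.sum_pair hθne.symm, classInner_smul_right, classInner_smul_right, hmi, hmi, hm1,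
      hsgnθ, hεm] at h0
    simp at h0
    have : (m ψ : ℂ) = (m θ : ℂ) := by linear_combination -h0
    exact_mod_cast this
  have hθd : charDegree (θ : G → ℂ) + 1 = p := by
    have h := apply_one_eq_charDegree (isCharacter_of_isIrr θ.2)
    rw [hθ, hfx1] at h
    have h' : ((charDegree (θ : G → ℂ) + 1 : ℕ) : ℂ) = (p : ℂ) := by
      push_cast; linear_combination -h
    exact_mod_cast h'
  have hψd : ∀ ψ ∈ Y, charDegree (ψ : G → ℂ) + 2 = p := by
    intro ψ hψ
    have h := hψval ψ hψ 1 (by rw [orderOf_one]; exact hp.out.not_dvd_one)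
    rw [hfx1, apply_one_eq_charDegree (isCharacter_of_isIrr ψ.2)] at h
    have h' : ((charDegree (ψ : G → ℂ) + 2 : ℕ) : ℂ) = (p : ℂ) := by
      push_cast; linear_combination h
    exact_mod_cast h'
  have hLdeg : 2 * (∑ χ : IrrCharacter G, m χ * charDegree (χ : G → ℂ)) + p = p * p := by
    have h := hL 1
    rw [one_mul, hfx1, hm, Finset.sum_apply,
      Finset.sum_congr rfl (g := fun χ : IrrCharacter G =>
        ((m χ * charDegree (χ : G → ℂ) : ℕ) : ℂ)) (fun χ _ => by
          rw [Pi.smul_apply, smul_eq_mul, apply_one_eq_charDegree (isCharacter_of_isIrr χ.2),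
            Nat.cast_mul]), ← Nat.cast_sum] at h
    have h' : ((2 * (∑ χ : IrrCharacter G, m χ * charDegree (χ : G → ℂ)) + p : ℕ) : ℂ) =
        ((p * p : ℕ) : ℂ) := by push_cast at h ⊢; linear_combination h
    exact_mod_cast h'
  obtain ⟨t, ht⟩ : ∃ t, p = 2 * t + 1 := by
    rcases hp.out.eq_two_or_odd' with h | ⟨t, h⟩
    · omega
    · exact ⟨t, h⟩
  have hYt : Y.card = t := by rw [hY]; omega
  have hθY : θ ∉ Y := hnY θ hθZ
  have hsub : ∑ χ ∈ insert θ Y, m χ * charDegree (χ : G → ℂ) = m θ * (2 * t + t * (2 * t - 1)) := by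
    rw [Finset.sum_insert hθY, Finset.sum_congr rfl (g := fun _ => m θ * (2 * t - 1)) fun ψ hψ => by
      rw [hmY ψ hψ, show charDegree (ψ : G → ℂ) = 2 * t - 1 by have := hψd ψ hψ; omega],
      Finset.sum_const, smul_eq_mul, hYt,
      show charDegree (θ : G → ℂ) = 2 * t by omega]
    ring
  have hsplit : ∑ χ ∈ (Finset.univ \ insert θ Y), m χ * charDegree (χ : G → ℂ) +
      ∑ χ ∈ insert θ Y, m χ * charDegree (χ : G → ℂ) =
        ∑ χ : IrrCharacter G, m χ * charDegree (χ : G → ℂ) :=
    Finset.sum_sdiff (Finset.subset_univ _)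
  obtain ⟨t', rfl⟩ : ∃ t', t = t' + 1 := ⟨t - 1, by omega⟩
  rw [show 2 * (t' + 1) - 1 = 2 * t' + 1 by omega] at hsub
  have hm0 : 1 ≤ m θ := Nat.pos_of_ne_zero hmθ
  have hmθ1 : m θ = 1 := by
    by_contra hne
    have h2 : 2 * (2 * (t' + 1) + (t' + 1) * (2 * t' + 1)) ≤
        m θ * (2 * (t' + 1) + (t' + 1) * (2 * t' + 1)) := Nat.mul_le_mul_right _ (by omega)
    rw [ht] at hLdeg
    have := Nat.zero_le (t' * t')
    have := Nat.zero_le (∑ χ ∈ (Finset.univ \ insert θ Y), m χ * charDegree (χ : G → ℂ))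
    nlinarith [hsub, hsplit, h2]
  rw [hmθ1, one_mul] at hsub
  have hrest : ∀ χ : IrrCharacter G, χ ∉ insert θ Y → m χ = 0 := by
    intro χ hχ
    have h0 : ∑ χ ∈ (Finset.univ \ insert θ Y), m χ * charDegree (χ : G → ℂ) = 0 := by
      rw [ht] at hLdeg
      nlinarith
    have := Finset.sum_eq_zero_iff.1 h0 χ (Finset.mem_sdiff.2 ⟨Finset.mem_univ _, hχ⟩)
    exact (Nat.mul_eq_zero.1 this).resolve_right (charDegree_pos χ.2).ne'
  have hLeq : ∀ g : G, ¬ p ∣ orderOf g →
      fx Ω g * fx Ω g - fx Ω (g * g) = ((p : ℂ) + 1) * fx Ω g - 2 * p := by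
    intro g hg
    rw [← hL, hm, Finset.sum_apply, ← Finset.sum_subset (Finset.subset_univ (insert θ Y))
      (fun χ _ hχ => by rw [hrest χ hχ]; simp), Finset.sum_insert hθY,
      Finset.sum_congr rfl (g := fun _ => fx Ω g - 2) fun ψ hψ => by
        rw [hmY ψ hψ, hmθ1, Nat.cast_one, one_smul, hψval ψ hψ g hg],
      Finset.sum_const, hYt, hmθ1, Nat.cast_one, one_smul, hθ, nsmul_eq_mul, ht]
    push_cast; ring
  -- conclusion
  intro g hg3
  by_contra hg1
  have hfix_le : ∀ z w : G, w ∈ Subgroup.zpowers z →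
      Nat.card (MulAction.fixedBy Ω z) ≤ Nat.card (MulAction.fixedBy Ω w) := by
    intro z w hw
    refine Nat.card_mono (Set.toFinite _) fun v hv => ?_
    exact MulAction.mem_stabilizer_iff.1
      ((Subgroup.zpowers_le.2 (MulAction.mem_stabilizer_iff.2 hv)) hw)
  have hfull : ∀ z : G, Nat.card (MulAction.fixedBy Ω z) = p → z = 1 := by
    intro z hz
    refine eq_of_smul_eq_smul (α := Ω) fun v => ?_
    rw [one_smul]
    have huniv : MulAction.fixedBy Ω z = Set.univ :=
      Set.eq_of_subset_of_ncard_le (Set.subset_univ _)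
        (by rw [Set.ncard_univ, hΩ, ← Nat.card_coe_set_eq, hz]) (Set.toFinite _)
    exact (huniv ▸ Set.mem_univ v : v ∈ MulAction.fixedBy Ω z)
  have hpos : ∀ z : G, 1 ≤ Nat.card (MulAction.fixedBy Ω z) → ¬ p ∣ orderOf z := by
    intro z hz hd
    have h := hsing z hd
    rw [fx_eq, Nat.cast_eq_zero] at h
    omega
  have hkey : ∀ z : G, 1 ≤ Nat.card (MulAction.fixedBy Ω z) →
      ((Nat.card (MulAction.fixedBy Ω z) : ℤ)) * Nat.card (MulAction.fixedBy Ω z) -
        Nat.card (MulAction.fixedBy Ω (z * z)) =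
          ((p : ℤ) + 1) * Nat.card (MulAction.fixedBy Ω z) - 2 * p := fun z hz => by
    have h := hLeq z (hpos z hz)
    rw [fx_eq, fx_eq] at h
    exact_mod_cast h
  rcases Nat.even_or_odd (orderOf g) with hev | hodd
  · -- a power is an involution
    obtain ⟨k, hk⟩ := hev
    set i := g ^ k with hi
    have hi1 : i ≠ 1 := fun e => by
      have := Nat.le_of_dvd (by have := orderOf_pos g; omega) (orderOf_dvd_of_pow_eq_one e)
      have := orderOf_pos g
      omega
    have hi2 : i * i = 1 := by rw [hi, ← pow_add, ← hk, pow_orderOf_eq_one]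
    have hf : 3 ≤ Nat.card (MulAction.fixedBy Ω i) :=
      le_trans hg3 (hfix_le g i (pow_mem (Subgroup.mem_zpowers g) k))
    have h := hkey i (by omega)
    rw [hi2, show Nat.card (MulAction.fixedBy Ω (1 : G)) = p by
      rw [MulAction.fixedBy_one_eq_univ, Nat.card_univ, hΩ]] at h
    have h' : ((Nat.card (MulAction.fixedBy Ω i) : ℤ) - p) *
        ((Nat.card (MulAction.fixedBy Ω i) : ℤ) - 1) = 0 := by linear_combination h
    rcases mul_eq_zero.1 h' with e | e
    · exact hi1 (hfull i (by omega))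
    · omega
  · have hgg : g ∈ Subgroup.zpowers (g * g) := by
      obtain ⟨k, hk⟩ := hodd
      refine Subgroup.mem_zpowers_iff.2 ⟨((k + 1 : ℕ) : ℤ), ?_⟩
      rw [zpow_natCast, ← pow_two, ← pow_mul, show 2 * (k + 1) = orderOf g + 1 by omega, pow_succ,
        pow_orderOf_eq_one, one_mul]
    have e1 : Nat.card (MulAction.fixedBy Ω (g * g)) = Nat.card (MulAction.fixedBy Ω g) :=
      le_antisymm (hfix_le _ _ hgg) (hfix_le _ _ (mul_mem (Subgroup.mem_zpowers g)
        (Subgroup.mem_zpowers g)))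
    have h := hkey g (by omega)
    rw [e1] at h
    have h' : ((Nat.card (MulAction.fixedBy Ω g) : ℤ) - p) *
        ((Nat.card (MulAction.fixedBy Ω g) : ℤ) - 2) = 0 := by linear_combination h
    rcases mul_eq_zero.1 h' with e | e
    · exact hg1 (hfull g (by omega))
    · omega

/-- Such a group is sharply triply transitive. -/
theorem three_trans (hΩ : Nat.card Ω = p) (hp5 : 5 ≤ p) (P : Sylow p G)
    (hN : Nat.card (N P) = 2 * p) [MulAction.IsPretransitive G Ω]
    (h2t : MulAction.IsMultiplyPretransitive G Ω 2) :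
    MulAction.IsMultiplyPretransitive G Ω 3 := by
  have hfix := fix_bound hΩ hp5 P hN h2t
  have hΩ' : Fintype.card Ω = p := by rw [← Nat.card_eq_fintype_card, hΩ]
  obtain ⟨z⟩ : Nonempty (Fin 3 ↪ Ω) := Function.Embedding.nonempty_of_card_le (by simp; omega)
  have hinj : Function.Injective (fun g : G => g • z) := by
    intro g h e
    have hgh : ∀ i, (h⁻¹ * g) • z i = z i := fun i => by
      rw [mul_smul, show g • z i = h • z i from congrArg (fun w : Fin 3 ↪ Ω => w i) e,
        inv_smul_smul]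
    refine (inv_mul_eq_one.1 (hfix _ ?_)).symm
    have : Nat.card (Fin 3) ≤ Nat.card (MulAction.fixedBy Ω (h⁻¹ * g)) :=
      Nat.card_le_card_of_injective (fun i => ⟨z i, hgh i⟩)
        fun i j e' => z.injective (congrArg Subtype.val e')
    simpa using this
  -- the order of `G`
  have hP : Nat.card (P : Subgroup G) = p := Perm.card_sylow_of_prime (Ω := Ω) hΩ P
  obtain ⟨a, b, hab⟩ := Fintype.exists_pair_of_one_lt_card (α := Ω) (by omega)
  have hG : ∃ k, Nat.card G = p * (p - 1) * k := by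
    have h1 := MulAction.index_stabilizer_of_transitive G a
    set H := MulAction.stabilizer G a
    haveI htr : MulAction.IsPretransitive H (SubMulAction.ofStabilizer G a) := by
      have h' := (SubMulAction.ofStabilizer.isMultiplyPretransitive (n := 1) (a := a)).1 h2t
      exact MulAction.is_one_pretransitive_iff.1 h'
    set w0 : SubMulAction.ofStabilizer G a := ⟨b, (SubMulAction.mem_ofStabilizer_iff G a).2 hab.symm⟩
    have h2 := MulAction.index_stabilizer_of_transitive H
      w0
    have hcc : Nat.card (SubMulAction.ofStabilizer G a) = p - 1 := by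
      rw [← hΩ]; exact SubMulAction.nat_card_ofStabilizer_eq G a
    refine ⟨Nat.card (MulAction.stabilizer H
      w0), ?_⟩
    rw [← H.index_mul_card, h1, hΩ, mul_assoc,
      ← (MulAction.stabilizer H w0).index_mul_card, h2, hcc]
  obtain ⟨k, hk⟩ := hG
  have hcard3 : Nat.card (Fin 3 ↪ Ω) = p * (p - 1) * (p - 2) := by
    rw [Nat.card_eq_fintype_card, Fintype.card_embedding_eq, hΩ', Fintype.card_fin]
    simp [Nat.descFactorial]
    ring
  have hle := Nat.card_le_card_of_injective _ hinj
  rw [hk, hcard3] at hle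
  have hpos : 0 < p * (p - 1) := Nat.mul_pos hp.out.pos (by omega)
  have hk' : k ≤ p - 2 := Nat.le_of_mul_le_mul_left hle hpos
  have hkeq : k = p - 2 := by
    -- congruence from the number of Sylow subgroups
    have hs : Nat.card G = 2 * p * Nat.card (Sylow p G) := by
      rw [← hN, P.card_eq_index_normalizer]
      exact (Subgroup.card_mul_index _).symm
    have h1 : (p - 1) * k = 2 * Nat.card (Sylow p G) := by
      rw [hk, mul_assoc p, mul_comm 2 p, mul_assoc p] at hs
      exact Nat.eq_of_mul_eq_mul_left hp.out.pos hs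
    have h2 : ((Nat.card (Sylow p G) : ℕ) : ZMod p) = ((1 : ℕ) : ZMod p) :=
      (ZMod.natCast_eq_natCast_iff _ _ _).2 (card_sylow_modEq_one p G)
    have h3 : ((k + 2 : ℕ) : ZMod p) = 0 := by
      have h4 := congrArg (Nat.cast : ℕ → ZMod p) h1
      rw [Nat.cast_mul, Nat.cast_mul, h2, Nat.cast_sub hp.out.pos, ZMod.natCast_self] at h4
      push_cast at h4 ⊢
      linear_combination -h4
    rw [ZMod.natCast_eq_zero_iff] at h3
    have := Nat.le_of_dvd (by omega) h3
    omega
  have hbij : Function.Bijective (fun g : G => g • z) :=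
    hinj.bijective_of_nat_card_le (by rw [hk, hkeq, hcard3])
  refine (MulAction.isPretransitive_iff_base z).2 fun w => ?_
  exact hbij.2 w

end Cfsg.Agent.Lib.Brauer43.PrimeTwoP
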