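import Cfsg.Agent.Lib.Brauer43.IndexTwoP
import Cfsg.Agent.Lib.Brauer43.Main
import Cfsg.Agent.Lib.Classical.Order
import Cfsg.Agent.Lib.CharTools.Codegree
import Cfsg.Agent.Lib.CharGalois
import Cfsg.Agent.Lib.Char.SmallDegrees
import Cfsg.Agent.S0157
import Cfsg.Agent.S0190

/-!
# Primitive groups of degree `2 p` with Sylow normaliser of order `2 p`
-/

set_option autoImplicit false
set_option linter.unusedSectionVars false
set_option linter.style.haveILetI false

namespace Cfsg.Agent.Lib.Brauer43.TwoPPrimitive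

open Cfsg Cfsg.Agent.Lib Cfsg.Agent.Lib.Char Cfsg.Agent.Lib.DefectOne
open Cfsg.Agent.Lib.Char.UC (C N)
open scoped Classical ComplexConjugate

universe u v

variable {p : ℕ} [hp : Fact p.Prime] {G : Type u} [Group G] [Fintype G] {Ω : Type v}
  [MulAction G Ω] [FaithfulSMul G Ω] [Fintype Ω]

theorem structure_of (hΩ : Nat.card Ω = 2 * p) (hp5 : 5 ≤ p) (P : Sylow p G)
    (hN : Nat.card (N P) = 2 * p) (hprim : MulAction.IsPreprimitive G Ω)
    (hnot2 : ¬ MulAction.IsMultiplyPretransitive G Ω 2)
    (hfree : ∀ y : G, orderOf y = p → ∀ v : Ω, y • v ≠ v) :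
    IsSimpleGroup G ∧ Nat.card G = p * (p - 1) * (p - 2) ∧
      ((∃ (F : Type) (_ : Field F) (_ : Fintype F), Fintype.card F = p ∧ 3 < p ∧
          Nonempty (G ≃* Matrix.ProjectiveSpecialLinearGroup (Fin 2) F)) ∨
        (∃ (m : ℕ) (F : Type) (_ : Field F) (_ : Fintype F), Fintype.card F = 2 ^ m ∧ p = 2 ^ m + 1 ∧
          3 < p ∧ Nonempty (G ≃* Matrix.ProjectiveSpecialLinearGroup (Fin 2) F))) := by
  classical
  haveI := hprim.toIsPretransitive
  haveI : Nonempty Ω := (Nat.card_pos_iff.1 (hΩ ▸ Nat.mul_pos two_pos hp.out.pos)).1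
  obtain ⟨a⟩ := (inferInstance : Nonempty Ω)
  have hΩG : 2 * p ∣ Nat.card G := hΩ ▸ MulAction.index_stabilizer_of_transitive G a ▸
    Subgroup.index_dvd_card _
  have hdvd : p ∣ Nat.card G := (dvd_mul_left p 2).trans hΩG
  have hP : Nat.card (P : Subgroup G) = p := by
    obtain ⟨k, hk⟩ := IsPGroup.iff_card.1 P.2
    have h1 : p ^ k ∣ 2 * p := hk ▸ hN ▸ Subgroup.card_dvd_of_le Subgroup.le_normalizer
    have hk0 : k ≠ 0 := by
      rintro rfl
      exact P.ne_bot_of_dvd_card hdvd (Subgroup.card_eq_one.1 (by simpa using hk))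
    have hk1 : ¬ 2 ≤ k := fun h => by
      have h2 : p * p ∣ 2 * p := by
        rw [← pow_two]; exact (pow_dvd_pow p h).trans h1
      have := Nat.le_of_dvd (by omega) (Nat.dvd_of_mul_dvd_mul_right hp.out.pos h2)
      omega
    rw [hk, show k = 1 by omega, pow_one]
  have hPC : (P : Subgroup G) ≤ C P := UC.le_C (star_of_card hP)
  -- nontrivial normal subgroups contain `P`
  have hnormP : ∀ K : Subgroup G, K.Normal → K ≠ ⊥ → p ∣ Nat.card K := by
    intro K hK hne
    haveI := hK
    haveI : MulAction.IsQuasiPreprimitive G Ω := inferInstance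
    haveI : MulAction.IsPretransitive K Ω :=
      MulAction.IsQuasiPreprimitive.isPretransitive_of_normal (N := K) fun h => hne (by
        rw [eq_bot_iff]
        intro g hg
        rw [Subgroup.mem_bot]
        refine eq_of_smul_eq_smul (α := Ω) fun v => ?_
        have hv : v ∈ MulAction.fixedPoints K Ω := h ▸ Set.mem_univ v
        rw [one_smul]
        exact hv ⟨g, hg⟩)
    exact (dvd_mul_left p 2).trans (hΩ ▸ MulAction.index_stabilizer_of_transitive K a ▸
      Subgroup.index_dvd_card _)
  -- no subgroup has a normal `p`-complement unless it is `P`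
  have hcomp : ∀ (K : Subgroup G), K.Normal → ∀ Q : Sylow p K, Nat.card (Q : Subgroup K) = p →
      Subgroup.normalizer ((Q : Subgroup K) : Set K) ≤
        Subgroup.centralizer ((Q : Subgroup K) : Set K) → Nat.card K = p := by
    intro K hK Q hQ hle
    haveI := hK
    have hc := MonoidHom.ker_transferSylow_isComplement' Q hle
    set L := (MonoidHom.transferSylow Q hle).ker with hL
    have hcard := hc.card_mul
    rw [hQ] at hcard
    have hLp : ¬ p ∣ Nat.card L := fun h => by
      have h2 : p * p ∣ Nat.card K := hcard ▸ mul_dvd_mul h (dvd_refl p)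
      rw [← (Q : Subgroup K).card_mul_index, hQ] at h2
      exact Q.not_dvd_index (Nat.dvd_of_mul_dvd_mul_left hp.out.pos h2)
    have hmem : ∀ k : K, k ∈ L ↔ ¬ p ∣ orderOf k := by
      intro k
      refine ⟨fun hk h => hLp (h.trans (L.orderOf_dvd_natCard hk)), fun hk => ?_⟩
      rw [hL, MonoidHom.mem_ker, ← orderOf_eq_one_iff]
      have h1 : orderOf (MonoidHom.transferSylow Q hle k) ∣ p :=
        (orderOf_dvd_natCard _).trans hQ.dvd
      rcases (Nat.dvd_prime hp.out).1 h1 with h | h
      · exact h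
      · exact absurd (h ▸ orderOf_map_dvd _ k) hk
    haveI : (L.map K.subtype).Normal := ⟨fun x hx g => by
      obtain ⟨k, hk, rfl⟩ := hx
      refine ⟨⟨g * k * g⁻¹, hK.conj_mem _ k.2 g⟩, (hmem _).2 ?_, rfl⟩
      rw [← Subgroup.orderOf_coe, show ((⟨g * k * g⁻¹, hK.conj_mem _ k.2 g⟩ : K) : G) =
        MulAut.conj g (k : G) from rfl, MulEquiv.orderOf_eq, Subgroup.orderOf_coe]
      exact (hmem k).1 hk⟩
    have hbot : L.map K.subtype = ⊥ := by_contra fun hne => hLp (by
      have h := hnormP _ inferInstance hne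
      rwa [Subgroup.card_map_of_injective K.subtype_injective] at h)
    rw [Subgroup.map_eq_bot_iff_of_injective _ K.subtype_injective] at hbot
    rw [hbot, Subgroup.card_bot, one_mul] at hcard
    exact hcard.symm
  have hNdvd : Nat.card (C P) ∣ 2 * p := hN ▸ Subgroup.card_dvd_of_le (UC.C_le_N P)
  have hself : C P = (P : Subgroup G) := by
    refine (Subgroup.eq_of_le_of_card_ge hPC ?_).symm
    obtain ⟨q, hq⟩ : p ∣ Nat.card (C P) := hP.symm.dvd.trans (Subgroup.card_dvd_of_le hPC)
    rw [hq, mul_comm 2 p] at hNdvd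
    rcases (Nat.dvd_prime Nat.prime_two).1 (Nat.dvd_of_mul_dvd_mul_left hp.out.pos hNdvd) with h | h
    · rw [hP, hq, h, mul_one]
    · exfalso
      have hCN : C P = N P := Subgroup.eq_of_le_of_card_ge (UC.C_le_N P) (by rw [hN, hq, h, mul_comm])
      -- then `G` has a normal `p`-complement
      set Q := P.subtype (show (P : Subgroup G) ≤ ⊤ from le_top)
      have hQ : Nat.card (Q : Subgroup (⊤ : Subgroup G)) = p := by
        rw [Sylow.coe_subtype, Nat.card_congr (Subgroup.subgroupOfEquivOfLe le_top).toEquiv, hP]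
      have := hcomp ⊤ inferInstance Q hQ (by
        intro g hg
        have hgN : (g : G) ∈ N P := by
          refine Subgroup.mem_normalizer_iff.2 fun x => ?_
          have := Subgroup.mem_normalizer_iff.1 hg ⟨x, Subgroup.mem_top x⟩
          simpa [Q, Sylow.coe_subtype, Subgroup.mem_subgroupOf] using this
        rw [← hCN] at hgN
        refine Subgroup.mem_centralizer_iff.2 fun x hx => Subtype.ext ?_
        have h : (x : G) ∈ (P : Subgroup G) := by
          simpa [Q, Sylow.coe_subtype, Subgroup.mem_subgroupOf] using hx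
        exact Subgroup.mem_centralizer_iff.1 hgN x h)
      rw [Subgroup.card_top] at this
      have := Nat.le_of_dvd (by omega) (this ▸ hΩG)
      omega
  -- simplicity
  haveI : Nontrivial G := Finite.one_lt_card_iff_nontrivial.1
    (lt_of_lt_of_le hp.out.one_lt (Nat.le_of_dvd Nat.card_pos hdvd))
  have hsimple : IsSimpleGroup G := by
    refine ⟨fun K hK => or_iff_not_imp_left.2 fun hne => ?_⟩
    haveI := hK
    have hd := hnormP K hK hne
    have hidx : ¬ p ∣ K.index := fun h => by
      have h2 : p * p ∣ Nat.card G := K.card_mul_index ▸ mul_dvd_mul hd h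
      rw [← (P : Subgroup G).card_mul_index, hP] at h2
      exact P.not_dvd_index (Nat.dvd_of_mul_dvd_mul_left hp.out.pos h2)
    have hPK : (P : Subgroup G) ≤ K := by
      intro y hy
      have h1 : (⟨y, hy⟩ : (P : Subgroup G)) ^ Nat.card (P : Subgroup G) = 1 := pow_card_eq_one'
      rw [hP] at h1
      have hy' : ((y : G ⧸ K)) ^ p = 1 := by
        rw [← QuotientGroup.mk_pow, show y ^ p = 1 by simpa using congrArg Subtype.val h1]; rfl
      rcases hp.out.eq_one_or_self_of_dvd _ (orderOf_dvd_of_pow_eq_one hy') with h | h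
      · exact (QuotientGroup.eq_one_iff y).1 (orderOf_eq_one_iff.1 h)
      · exact absurd (h ▸ orderOf_dvd_natCard (y : G ⧸ K)) hidx
    set Q := P.subtype hPK
    have hQ : Nat.card (Q : Subgroup K) = p := by
      rw [Sylow.coe_subtype, Nat.card_congr (Subgroup.subgroupOfEquivOfLe hPK).toEquiv, hP]
    by_cases hNK : N P ≤ K
    · -- `G = K N(P) = K`
      have hfrat := Sylow.normalizer_sup_eq_top Q
      rw [show (Q : Subgroup K).map K.subtype = (P : Subgroup G) by
        rw [Sylow.coe_subtype, Subgroup.map_subgroupOf_eq_of_le hPK]] at hfrat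
      exact top_le_iff.1 (hfrat ▸ sup_le hNK le_rfl)
    · exfalso
      have hinf : Nat.card (K ⊓ N P : Subgroup G) = p := by
        have hle : (P : Subgroup G) ≤ K ⊓ N P := le_inf hPK Subgroup.le_normalizer
        obtain ⟨q, hq⟩ : p ∣ Nat.card (K ⊓ N P : Subgroup G) :=
          hP.symm.dvd.trans (Subgroup.card_dvd_of_le hle)
        have hd2 : Nat.card (K ⊓ N P : Subgroup G) ∣ p * 2 := by
          rw [mul_comm, ← hN]; exact Subgroup.card_dvd_of_le inf_le_right
        rw [hq] at hd2
        rcases (Nat.dvd_prime Nat.prime_two).1 (Nat.dvd_of_mul_dvd_mul_left hp.out.pos hd2) with h | h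
        · rw [hq, h, mul_one]
        · exfalso
          refine hNK (le_trans (le_of_eq ?_) (inf_le_left : K ⊓ N P ≤ K))
          exact (Subgroup.eq_of_le_of_card_ge inf_le_right (by rw [hN, hq, h, mul_comm])).symm
      have hPeq : K ⊓ N P = (P : Subgroup G) :=
        (Subgroup.eq_of_le_of_card_ge (le_inf hPK Subgroup.le_normalizer) (by rw [hinf, hP])).symm
      have hK := hcomp K hK Q hQ (by
        intro g hg
        have hgN : (g : G) ∈ N P := by
          refine Subgroup.mem_normalizer_iff.2 fun x => ?_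
          by_cases hxK : x ∈ K
          · have := Subgroup.mem_normalizer_iff.1 hg ⟨x, hxK⟩
            simpa [Q, Sylow.coe_subtype, Subgroup.mem_subgroupOf] using this
          · refine iff_of_false (fun h => hxK (hPK h)) fun h => hxK ?_
            have := mul_mem (mul_mem (inv_mem g.2) (hPK h)) g.2
            simpa [mul_assoc] using this
        have hgP : (g : G) ∈ (P : Subgroup G) := hPeq ▸ Subgroup.mem_inf.2 ⟨g.2, hgN⟩
        refine Subgroup.mem_centralizer_iff.2 fun x hx => Subtype.ext ?_
        have h : (x : G) ∈ (P : Subgroup G) := by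
          simpa [Q, Sylow.coe_subtype, Subgroup.mem_subgroupOf] using hx
        exact Subgroup.mem_centralizer_iff.1 (hPC hgP) x h)
      -- `K = P` would be normal
      have hKP : K = (P : Subgroup G) := (Subgroup.eq_of_le_of_card_ge hPK (by rw [hK, hP])).symm
      haveI : MulAction.IsQuasiPreprimitive G Ω := inferInstance
      haveI : MulAction.IsPretransitive K Ω :=
        MulAction.IsQuasiPreprimitive.isPretransitive_of_normal (N := K) fun h => hne (by
          rw [eq_bot_iff]
          intro g hg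
          rw [Subgroup.mem_bot]
          refine eq_of_smul_eq_smul (α := Ω) fun v => ?_
          have hv : v ∈ MulAction.fixedPoints K Ω := h ▸ Set.mem_univ v
          rw [one_smul]
          exact hv ⟨g, hg⟩)
      have h := hΩ ▸ MulAction.index_stabilizer_of_transitive K a ▸
        (MulAction.stabilizer K a).index_dvd_card
      rw [hK] at h
      have := Nat.le_of_dvd hp.out.pos h
      omega
  haveI := hsimple
  have hcomm : ¬ IsMulCommutative G := by
    intro hc
    letI : CommGroup G :=
      { (inferInstance : Group G) with mul_comm := fun a b => hc.is_comm.comm a b }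
    have hprime := (IsSimpleGroup.prime_card : (Nat.card G).Prime)
    rcases (Nat.dvd_prime hprime).1 hdvd with h | h
    · exact hp.out.ne_one h
    · have := Nat.le_of_dvd Nat.card_pos hΩG
      omega
  have hperf := SmallSimple.commutator_eq_top hcomm
  -- the block
  obtain ⟨Y, χ, s, ε, hY, h1Y, hχY, hχne, hs, hε, hχsing, hrel⟩ :=
    IndexTwoP.exists_block hP hself hN hp5
  have hlin : ∀ ξ : IrrCharacter G, charDegree (ξ : G → ℂ) = 1 → ξ = Block.oneIrr G := by
    intro ξ hf
    obtain ⟨l, hl⟩ := exists_hom_of_degree_one (isCharacter_of_isIrr ξ.2)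
      (by rw [apply_one_eq_charDegree (isCharacter_of_isIrr ξ.2), hf, Nat.cast_one])
    exact Subtype.ext (funext fun g => by
      rw [hl g, perfect_hom_trivial hperf l g, Units.val_one, Block.oneIrr_apply])
  set π : G → ℂ := fun g => (Nat.card (MulAction.fixedBy Ω g) : ℂ) with hπ
  have hπc : IsCharacter G π := by
    rw [hπ, Cfsg.Agent.S0190.result Ω a]
    exact isCharacter_indFun _ isCharacter_one
  obtain ⟨m, hm⟩ := isCharacter_eq_sum hπc
  have hmi : ∀ ξ : IrrCharacter G, classInner π (ξ : G → ℂ) = (m ξ : ℂ) := fun ξ => by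
    rw [hm]; exact IndexTwoP.classInner_sum_smul (fun ξ => (m ξ : ℂ)) ξ
  haveI : Fintype (MulAction.stabilizer G a) := Fintype.ofFinite _
  have hm1 : m (Block.oneIrr G) = 1 := by
    have h := hmi (Block.oneIrr G)
    rw [show classInner π (Block.oneIrr G : G → ℂ) = 1 by
      rw [hπ, Cfsg.Agent.S0190.result Ω a, classInner_indFun _ _
        (isClassFunction_of_isIrr (Block.oneIrr G).2), classInner]
      haveI : Nonempty { x : G // x • a = a } := ⟨⟨1, one_smul G a⟩⟩
      simp [Block.oneIrr_apply]] at h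
    exact_mod_cast h.symm
  have hπsing : ∀ g : G, p ∣ orderOf g → π g = 0 := by
    intro g hg
    have ho : orderOf (g ^ (orderOf g / p)) = p := orderOf_pow_orderOf_div (orderOf_pos g).ne' hg
    simp only [hπ, Nat.cast_eq_zero]
    refine Nat.card_eq_zero.2 (Or.inl ⟨fun v => hfree _ ho v.1 ?_⟩)
    exact MulAction.mem_stabilizer_iff.1 (pow_mem (MulAction.mem_stabilizer_iff.2 v.2) _)
  have hrel' : ∀ ψ ∈ Y, (ε : ℂ) * (m ψ : ℂ) - 1 - (s : ℂ) * (m χ : ℂ) = 0 := fun ψ hψ => by
    have h := IndexTwoP.coeff_rel h1Y hχne hrel hπsing hψ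
    rwa [hmi, hmi, hmi, hm1, Nat.cast_one, neg_zero] at h
  set f := charDegree (χ : G → ℂ) with hf
  have hf0 : 0 < f := charDegree_pos χ.2
  have hf1 : f ≠ 1 := fun h => hχne (hlin χ h)
  -- congruence of the degree
  obtain ⟨w, hw⟩ : ∃ w : ℕ, (f : ℤ) + ((p : ℤ) - 1) * s = p * w := by
    obtain ⟨w, hw⟩ := CharTools.exists_nat_sum_subgroup (isCharacter_of_isIrr χ.2) (P : Subgroup G)
    refine ⟨w, ?_⟩
    rw [← Finset.add_sum_erase _ _ (show (1 : G) ∈ Finset.univ.filter (· ∈ (P : Subgroup G)) by simp),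
      apply_one_eq_charDegree (isCharacter_of_isIrr χ.2),
      Finset.sum_congr rfl (g := fun _ => (s : ℂ)) fun x hx => ?_, Finset.sum_const, hP,
      Finset.card_erase_of_mem (by simp), ← Fintype.card_subtype, ← Nat.card_eq_fintype_card, hP,
      nsmul_eq_mul, Nat.cast_sub hp.out.pos] at hw
    · rw [← hf] at hw
      push_cast at hw
      exact_mod_cast hw
    · obtain ⟨hx1, hx⟩ := Finset.mem_erase.1 hx
      refine hχsing x ?_
      have h1 := (P : Subgroup G).orderOf_dvd_natCard (Finset.mem_filter.1 hx).2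
      rw [hP] at h1
      rcases (Nat.dvd_prime hp.out).1 h1 with h | h
      · exact absurd (orderOf_eq_one_iff.1 h) hx1
      · rw [h]
  -- the degrees of the exceptional characters
  obtain ⟨ψ₀, hψ₀⟩ := Finset.card_pos.1 (show 0 < Y.card by rw [hY]; omega)
  have hYd : ∀ ψ ∈ Y, ε * (charDegree (ψ : G → ℂ) : ℤ) = 1 + s * f ∧ 2 ≤ charDegree (ψ : G → ℂ) := by
    intro ψ hψ
    have h := hrel ψ hψ 1 (by rw [orderOf_one]; exact hp.out.not_dvd_one)
    rw [apply_one_eq_charDegree (isCharacter_of_isIrr ψ.2),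
      apply_one_eq_charDegree (isCharacter_of_isIrr χ.2), ← hf] at h
    refine ⟨by exact_mod_cast h, ?_⟩
    have h0 := charDegree_pos ψ.2
    by_contra hlt
    exact h1Y (hlin ψ (by omega) ▸ hψ)
  set D := charDegree (ψ₀ : G → ℂ) with hD
  have hYdeg : ∀ ψ ∈ Y, charDegree (ψ : G → ℂ) = D := fun ψ hψ => by
    have h1 := (hYd ψ hψ).1
    rw [← (hYd ψ₀ hψ₀).1] at h1
    rcases hε with rfl | rfl <;> simpa using h1
  have hmY : ∀ ψ ∈ Y, m ψ = m ψ₀ := fun ψ hψ => by
    have h1 := hrel' ψ hψ
    have h2 := hrel' ψ₀ hψ₀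
    have : (m ψ : ℂ) = (m ψ₀ : ℂ) := by
      rcases hε with rfl | rfl
      · push_cast at h1 h2; linear_combination h1 - h2
      · push_cast at h1 h2; linear_combination h2 - h1
    exact_mod_cast this
  have hsum : ∑ ξ : IrrCharacter G, m ξ * charDegree (ξ : G → ℂ) = 2 * p := by
    have h := congrFun hm 1
    rw [Finset.sum_apply, show π 1 = ((2 * p : ℕ) : ℂ) by
      simp [hπ, ← Nat.card_eq_fintype_card, hΩ, Set.ncard_univ],
      Finset.sum_congr rfl (g := fun ξ : IrrCharacter G =>
        ((m ξ * charDegree (ξ : G → ℂ) : ℕ) : ℂ)) (fun ξ _ => by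
          rw [Pi.smul_apply, smul_eq_mul, apply_one_eq_charDegree (isCharacter_of_isIrr ξ.2),
            Nat.cast_mul]), ← Nat.cast_sum] at h
    exact (Nat.cast_injective h).symm
  have hbound : ∀ S : Finset (IrrCharacter G), ∑ ξ ∈ S, m ξ * charDegree (ξ : G → ℂ) ≤ 2 * p :=
    fun S => hsum ▸ Finset.sum_le_sum_of_subset (Finset.subset_univ S)
  have hb := hbound (insert (Block.oneIrr G) (insert χ Y))
  rw [Finset.sum_insert (by simp [h1Y, hχne.symm]), Finset.sum_insert hχY,
    Finset.sum_congr rfl (g := fun _ => m ψ₀ * D) (fun ψ hψ => by rw [hmY ψ hψ, hYdeg ψ hψ]),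
    Finset.sum_const, smul_eq_mul, hY, hm1, show charDegree (Block.oneIrr G : G → ℂ) = 1 from
      charDegree_one, one_mul, ← hf] at hb
  have hc := hrel' ψ₀ hψ₀
  have hc' : ε * (m ψ₀ : ℤ) - 1 - s * (m χ : ℤ) = 0 := by exact_mod_cast hc
  obtain ⟨hD1, hD2⟩ := hYd ψ₀ hψ₀
  rw [← hD] at hD1 hD2
  have hpz : (5 : ℤ) ≤ p := by exact_mod_cast hp5
  -- the multiplicities
  have hw1 : s = -1 → p - 1 ≤ f := by
    rintro rfl
    have hwn : f + 1 = p * w + p := by
      have : ((f + 1 : ℕ) : ℤ) = ((p * w + p : ℕ) : ℤ) := by push_cast; linarith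
      exact_mod_cast this
    omega
  have hw2 : s = 1 → p + 1 ≤ f := by
    rintro rfl
    have hw0 : 2 ≤ w := by
      by_contra hh
      interval_cases w <;> push_cast at hw <;> omega
    have hpw : p * 2 ≤ p * w := Nat.mul_le_mul_left p hw0
    have hwn : f + p = p * w + 1 := by
      have : ((f + p : ℕ) : ℤ) = ((p * w + 1 : ℕ) : ℤ) := by push_cast; linarith
      exact_mod_cast this
    omega
  have hc0 : m ψ₀ = 0 := by
    by_contra hne
    have hbig : (p - 1) / 2 * D ≤ (p - 1) / 2 * (m ψ₀ * D) :=
      Nat.mul_le_mul_left _ (Nat.le_mul_of_pos_left _ (Nat.pos_of_ne_zero hne))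
    have hD3 : f ≤ D + 1 ∧ p - 2 ≤ D := by
      rcases hε with rfl | rfl <;> rcases hs with rfl | rfl <;> simp at hD1 <;>
        have := hw1 <;> have := hw2 <;> constructor <;> omega
    have h2t : 2 ≤ (p - 1) / 2 := by omega
    rcases Nat.eq_zero_or_pos (m χ) with h0 | h0
    · rw [h0] at hb hc'
      push_cast at hc'
      -- `ε = 1`, so `D = 1 + s f`
      rcases hε with rfl | rfl
      · rcases hs with rfl | rfl
        · have : p + 2 ≤ D := by have := hw2 rfl; omega
          have := Nat.mul_le_mul h2t this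
          omega
        · simp at hD1
          omega
      · omega
    · have hfle : f ≤ m χ * f := Nat.le_mul_of_pos_left _ h0
      rcases Nat.lt_or_ge ((p - 1) / 2) 3 with hlt | hge
      · -- `p = 5`
        have hp5' : p ≤ 6 := by omega
        interval_cases p
        · rcases hε with rfl | rfl <;> rcases hs with rfl | rfl <;> simp at hD1 <;> omega
        · omega
      · have := Nat.mul_le_mul hge hD3.2
        rcases hs with rfl | rfl
        · have := hw2 rfl; omega
        · have := hw1 rfl; omega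
  rw [hc0, Nat.cast_zero, mul_zero, zero_sub] at hc'
  obtain ⟨hsneg, hmχ⟩ : s = -1 ∧ m χ = 1 := by
    rcases hs with rfl | rfl
    · omega
    · exact ⟨rfl, by omega⟩
  subst hsneg
  rw [hmχ, hc0] at hb
  have hwv : f = p - 1 ∨ f + 1 = 2 * p := by
    have hwn : f + 1 = p * w + p := by
      have : ((f + 1 : ℕ) : ℤ) = ((p * w + p : ℕ) : ℤ) := by push_cast; linarith
      exact_mod_cast this
    rcases Nat.lt_or_ge w 2 with h | h
    · interval_cases w <;> omega
    · have := Nat.mul_le_mul_left p h
      omega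
  have hfp : f + 1 = p := by
    refine hwv.elim (fun h => by omega) fun h => absurd ?_ hnot2
    -- then `π = 1 + χ`
    refine (Cfsg.Agent.S0157.result Ω (by omega)).1 ?_
    have h0 : ∀ ξ, ξ ≠ Block.oneIrr G → ξ ≠ χ → m ξ = 0 := by
      intro ξ h1 h2
      have := hbound {Block.oneIrr G, χ, ξ}
      rw [Finset.sum_insert (by simp [hχne.symm, h1.symm]), Finset.sum_pair h2.symm, hm1, hmχ,
        show charDegree (Block.oneIrr G : G → ℂ) = 1 from charDegree_one, ← hf] at this
      have h3 : m ξ * charDegree (ξ : G → ℂ) = 0 := by omega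
      exact (Nat.mul_eq_zero.1 h3).resolve_right (charDegree_pos ξ.2).ne'
    have e : (fun g => π g - 1) = (χ : G → ℂ) := by
      funext g
      rw [congrFun hm g, Finset.sum_apply, ← Finset.sum_subset
        (Finset.subset_univ {Block.oneIrr G, χ}) (fun ξ _ hξ => by
          simp only [Finset.mem_insert, Finset.mem_singleton, not_or] at hξ
          rw [h0 ξ hξ.1 hξ.2]; simp), Finset.sum_pair hχne.symm, hm1, hmχ]
      simp [Block.oneIrr_apply]
    show IsIrrCharacter G (fun g => π g - 1)
    rw [e]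
    exact χ.2
  have hεneg : ε = -1 := by
    refine hε.resolve_left fun e => ?_
    rw [e] at hD1
    omega
  subst hεneg
  -- rationality
  have hint : ∀ g : G, ∃ z : ℤ, (χ : G → ℂ) g = z := by
    have hfix : ∀ σ : ℂ ≃+* ℂ, CharGalois.autIrr σ χ = χ := by
      intro σ
      have hdeg : charDegree (CharGalois.autIrr σ χ : G → ℂ) = f := by
        have h := apply_one_eq_charDegree (isCharacter_of_isIrr (CharGalois.autIrr σ χ).2)
        rw [CharGalois.autIrr_apply, apply_one_eq_charDegree (isCharacter_of_isIrr χ.2),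
          map_natCast, ← hf] at h
        exact (Nat.cast_injective h).symm
      have hmσ : m (CharGalois.autIrr σ χ) = 1 := by
        have h := congrArg σ (hmi χ)
        rw [hmχ, Nat.cast_one, map_one] at h
        have h2 := hmi (CharGalois.autIrr σ χ)
        have e : classInner π (CharGalois.autIrr σ χ : G → ℂ) = σ (classInner π (χ : G → ℂ)) := by
          simp only [classInner, map_mul, map_inv₀, map_natCast, map_sum, CharGalois.autIrr_apply]
          refine congrArg _ (Finset.sum_congr rfl fun g _ => ?_)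
          rw [CharGalois.aut_conj_char σ (isCharacter_of_isIrr χ.2), hπ]
          simp
        rw [e, h] at h2
        exact_mod_cast h2.symm
      by_contra hne
      have hne1 : CharGalois.autIrr σ χ ≠ Block.oneIrr G := fun e => by
        rw [e, show charDegree (Block.oneIrr G : G → ℂ) = 1 from charDegree_one] at hdeg
        exact hf1 hdeg.symm
      -- no room for a second character of degree `p - 1`
      have h0 : ∀ ξ, ξ ∉ ({Block.oneIrr G, χ, CharGalois.autIrr σ χ} : Finset (IrrCharacter G)) →
          m ξ * charDegree (ξ : G → ℂ) ≤ 1 := by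
        intro ξ hξ
        have := hbound (insert ξ {Block.oneIrr G, χ, CharGalois.autIrr σ χ})
        rw [Finset.sum_insert hξ, Finset.sum_insert (by simp [hχne.symm, hne1.symm]),
          Finset.sum_pair (Ne.symm hne), hm1, hmχ, hmσ, hdeg,
          show charDegree (Block.oneIrr G : G → ℂ) = 1 from charDegree_one, ← hf] at this
        omega
      have hlast : ∑ ξ : IrrCharacter G, m ξ * charDegree (ξ : G → ℂ) =
          ∑ ξ ∈ ({Block.oneIrr G, χ, CharGalois.autIrr σ χ} : Finset (IrrCharacter G)),
            m ξ * charDegree (ξ : G → ℂ) := by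
        refine (Finset.sum_subset (Finset.subset_univ _) fun ξ _ hξ => ?_).symm
        have h := h0 ξ hξ
        by_contra hne0
        have h1 : charDegree (ξ : G → ℂ) = 1 :=
          Nat.eq_one_of_dvd_one (by
            have : m ξ * charDegree (ξ : G → ℂ) = 1 := by omega
            exact this ▸ dvd_mul_left _ _)
        exact hξ (by rw [hlin ξ h1]; simp)
      rw [hsum, Finset.sum_insert (by simp [hχne.symm, hne1.symm]), Finset.sum_pair (Ne.symm hne),
        hm1, hmχ, hmσ, hdeg, show charDegree (Block.oneIrr G : G → ℂ) = 1 from charDegree_one,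
        ← hf] at hlast
      omega
    intro g
    refine CharGalois.exists_int_of_fixed (char_isIntegral (isCharacter_of_isIrr χ.2) g) fun σ => ?_
    exact congrArg (fun ξ : IrrCharacter G => (ξ : G → ℂ) g) (hfix σ)
  have hcard : Nat.card G = p * (p - 1) * (p - 2) :=
    IndexTwoP.card_eq hP hself hN hp5 hY h1Y hχY hχne
      (fun g hg => by rw [hχsing g hg]; norm_num) hrel hint hfp
      fun g hg => SmallDegrees.faithful_of_simple χ.2
        (fun e => hχne (Subtype.ext (e.trans (funext fun g => (Block.oneIrr_apply g).symm)))) hg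
  refine ⟨hsimple, hcard, ?_⟩
  obtain ⟨t, rfl⟩ : ∃ t, p = 2 * t + 3 := by
    rcases hp.out.eq_two_or_odd' with h | ⟨k, h⟩
    · omega
    · exact ⟨k - 1, by omega⟩
  have hsyl : Nat.card (Sylow (2 * t + 3) G) = 1 + t * (2 * t + 3) := by
    have h1 : Nat.card G = 2 * (2 * t + 3) * Nat.card (Sylow (2 * t + 3) G) := by
      rw [← hN, P.card_eq_index_normalizer]
      exact (Subgroup.card_mul_index _).symm
    rw [hcard, show 2 * t + 3 - 1 = 2 * t + 2 by omega, show 2 * t + 3 - 2 = 2 * t + 1 by omega] at h1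
    refine Nat.eq_of_mul_eq_mul_left (show 0 < 2 * (2 * t + 3) by omega) ?_
    rw [← h1]; ring
  exact iso_psl (P := P) (n := t) ⟨hperf, hP, hself, hsyl, noF_of_small (by omega)⟩

end Cfsg.Agent.Lib.Brauer43.TwoPPrimitive
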